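import Cfsg.Agent.Lib.Helper81.LocalRing
import Mathlib

set_option autoImplicit false
open Cfsg Polynomial

namespace Cfsg.Agent.Lib.Helper5
open Cfsg.Agent.Lib.Helper81

variable {p : ℕ} {M : Ideal AlgInt}

/-- Finitely many elements of the local ring have a common denominator outside `M`. -/
theorem exists_common_denom (hM : IsPModular p M) {ι : Type*} (s : Finset ι) (c : ι → ℂ)
    (h : ∀ i ∈ s, MemLocalRing M (c i)) :
    ∃ b : AlgInt, b ∉ M ∧ ∀ i ∈ s, IsIntegral ℤ ((b : ℂ) * c i) := by
  classical
  induction s using Finset.induction_on with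
  | empty =>
    exact ⟨1, (Ideal.ne_top_iff_one M).1 hM.2.1.ne_top, by simp⟩
  | insert a s ha ih =>
    obtain ⟨b, hb, hbi⟩ := ih fun i hi => h i (Finset.mem_insert_of_mem hi)
    obtain ⟨x, y, hy, hxy⟩ := h a (Finset.mem_insert_self a s)
    have hP := isPrime_of_isPModular hM
    refine ⟨b * y, fun hh => ?_, ?_⟩
    · rcases hP.mem_or_mem hh with hh | hh
      · exact hb hh
      · exact hy hh
    · intro i hi
      rcases Finset.mem_insert.1 hi with rfl | hi
      · have hy' := coe_ne_zero_of_not_mem hy
        have : ((b * y : AlgInt) : ℂ) * c i = ((b * x : AlgInt) : ℂ) := by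
          rw [← hxy]; push_cast; field_simp
        rw [this]
        exact (b * x).2
      · have : ((b * y : AlgInt) : ℂ) * c i = (y : ℂ) * ((b : ℂ) * c i) := by
          push_cast; ring
        rw [this]
        exact y.2.mul (hbi i hi)

/-- The local ring is integrally closed in `ℂ`. -/
theorem memLocalRing_of_isIntegral_locRing (hM : IsPModular p M) {z : ℂ}
    (hz : IsIntegral (locRing hM) z) : MemLocalRing M z := by
  obtain ⟨f, hf, hfz⟩ := hz
  set g : ℂ[X] := f.map (algebraMap (locRing hM) ℂ) with hg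
  have hgm : g.Monic := hf.map _
  have hgz : g.eval z = 0 := by rw [hg, eval_map]; exact hfz
  have hcoef : ∀ i ∈ Finset.range (g.natDegree + 1), MemLocalRing M (g.coeff i) := by
    intro i _
    rw [hg, coeff_map]
    exact (f.coeff i).2
  obtain ⟨b, hb, hbi⟩ := exists_common_denom hM _ _ hcoef
  have hb' := coe_ne_zero_of_not_mem hb
  set h : ℂ[X] := scaleRoots g (b : ℂ) with hh
  have hhm : h.Monic := (monic_scaleRoots_iff _).2 hgm
  have hhz : h.eval ((b : ℂ) * z) = 0 := by
    have := scaleRoots_eval₂_mul (RingHom.id ℂ) z (b : ℂ) (p := g)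
    simp only [RingHom.id_apply, eval₂_id] at this
    rw [hh, this, hgz, mul_zero]
  have hlift : h ∈ Polynomial.lifts (algebraMap AlgInt ℂ) := by
    rw [Polynomial.lifts_iff_coeff_lifts]
    intro n
    have hint : IsIntegral ℤ (h.coeff n) := by
      rw [hh, coeff_scaleRoots]
      rcases lt_trichotomy n g.natDegree with hn | hn | hn
      · obtain ⟨k, hk⟩ : ∃ k, g.natDegree - n = k + 1 := ⟨g.natDegree - n - 1, by omega⟩
        rw [hk, pow_succ]
        have : g.coeff n * ((b : ℂ) ^ k * (b : ℂ)) = ((b : ℂ) * g.coeff n) * (b : ℂ) ^ k := by ring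
        rw [this]
        exact (hbi n (Finset.mem_range.2 (by omega))).mul (b.2.pow k)
      · rw [hn, Nat.sub_self, pow_zero, mul_one, hgm.coeff_natDegree]
        exact isIntegral_one
      · rw [coeff_eq_zero_of_natDegree_lt hn, zero_mul]
        exact isIntegral_zero
    exact ⟨⟨_, hint⟩, rfl⟩
  obtain ⟨q, hq, -, hqm⟩ := Polynomial.lifts_and_natDegree_eq_and_monic hlift hhm
  have h1 : IsIntegral AlgInt ((b : ℂ) * z) := by
    refine ⟨q, hqm, ?_⟩
    rw [← eval_map, hq]; exact hhz
  have h2 : IsIntegral ℤ ((b : ℂ) * z) := isIntegral_trans _ h1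
  refine ⟨⟨_, h2⟩, b, hb, ?_⟩
  show (b : ℂ) * z / (b : ℂ) = z
  field_simp

/-- Every monic polynomial over the local ring splits into linear factors over it. -/
theorem locRing_monic_splits (hM : IsPModular p M) (f : (locRing hM)[X]) (hf : f.Monic) :
    ∃ s : Multiset (locRing hM), f = (s.map (fun a => X - C a)).prod := by
  classical
  set g : ℂ[X] := f.map (algebraMap (locRing hM) ℂ) with hg
  have hgm : g.Monic := hf.map _
  have hsp : g.Splits := IsAlgClosed.splits g
  have hprod : g = (g.roots.map (fun a => X - C a)).prod := by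
    have := hsp.eq_prod_roots
    rw [hgm.leadingCoeff, C_1, one_mul] at this
    exact this
  have hmem : ∀ z ∈ g.roots, z ∈ locRing hM := by
    intro z hz
    apply memLocalRing_of_isIntegral_locRing hM
    refine ⟨f, hf, ?_⟩
    have := (mem_roots hgm.ne_zero).1 hz
    rw [IsRoot.def, hg, eval_map] at this
    exact this
  refine ⟨g.roots.pmap (fun z hz => (⟨z, hz⟩ : locRing hM)) hmem, ?_⟩
  apply Polynomial.map_injective (algebraMap (locRing hM) ℂ) Subtype.val_injective
  rw [← hg, Polynomial.map_multiset_prod, Multiset.map_map, Multiset.map_pmap]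
  conv_lhs => rw [hprod]
  congr 1
  rw [Multiset.pmap_eq_map_attach]
  conv_lhs => rw [← Multiset.attach_map_val g.roots]
  rw [Multiset.map_map]
  apply Multiset.map_congr rfl
  intro x _
  simp [Polynomial.map_sub]
  rfl

end Cfsg.Agent.Lib.Helper5
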