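import Cfsg.Agent.Lib.Helper5.KleinAux

set_option autoImplicit false
set_option linter.unusedSectionVars false
set_option linter.style.haveILetI false
open Cfsg
open scoped ComplexConjugate
open Cfsg.Agent.Lib.Helper20 Cfsg.Agent.Lib.Helper81 Cfsg.Agent.Lib.Helper80
open Cfsg.Agent.Lib.Helper80.GA

/-! The numerical data of a block with Klein four defect group. -/

namespace Cfsg.Agent.Lib.Helper5

universe u

section Main

variable {M : Ideal AlgInt} (hM : IsPModular 2 M) {G : Type u} [Group G] [Fintype G]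

/-- maximal Brauer pair, free action of the inertial group, nilpotency criterion -/
theorem klein_setup {B : Set (IrrCharacter G)} (hB : IsPBlock M B) {P : Subgroup G}
    (hPD : IsDefectGroup 2 M B P) (hV : IsKleinFour P) :
    ∃ e : GA (Kr hM) G, IsMaxBP 2 (blkR hM B) P e ∧
      (∀ g ∈ stabP P e, ∀ x ∈ P, x ≠ 1 → g * x * g⁻¹ = x → g ∈ Cn P) ∧
      (IsNilpotentBlock 2 M B ↔ stabP P e ≤ Cn P) := by
  haveI : Fact (Nat.Prime 2) := ⟨Nat.prime_two⟩
  have hab : ∀ x ∈ P, ∀ y ∈ P, x * y = y * x := fun x hx y hy => klein_comm P hV hx hy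
  have hdef := isDef_of_isDefectGroup hM hB hPD
  obtain ⟨e, hmax⟩ := (isBlk_blkR hM hB).exists_isMaxBP_of_isDef hdef
  have he : IsBP 2 P e := hmax.1.1
  have hN : P ⊔ Cn P ≤ stabP P e := sup_le (le_stabP he.2.inZ) (Cn_le_stabP he.2.inZ)
  have hblk : IsBlk (P ⊔ Cn P) e :=
    he.isBlk_of_fix le_sup_left le_sup_right (hN.trans (stabP_le_Nn P _))
      ((fixBy_stabP P _).mono hN)
  have hsp := split_sub hM hblk
  have hTp : ∀ S : Subgroup G, S ≤ stabP P e → IsPGroup 2 S →
      S ≤ Subgroup.centralizer (P : Set G) := fun S hS hSp =>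
    (hmax.pSubgroup_le hsp hS hSp).trans (sup_le (le_Cn_of_abelian hab le_rfl) le_rfl)
  refine ⟨e, hmax, fun g hg x hx hx1 hfix => klein_free hV (stabP_le_Nn P e) hTp hg hx hx1 hfix, ?_⟩
  rw [isNilpotentBlock_iff hM hB]
  exact hmax.abelian_nilB_iff hab hsp

include hM in
theorem klein_defect {B : Set (IrrCharacter G)} (hB : IsPBlock M B) {P : Subgroup G}
    (hPD : IsDefectGroup 2 M B P) (hV : IsKleinFour P) : blockDefect 2 B = 2 := by
  haveI : Fact (Nat.Prime 2) := ⟨Nat.prime_two⟩
  have h1 := Cfsg.Agent.Lib.Helper21.card_defectGroup hM B hB P hPD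
  rw [IsKleinFour.card_four] at h1
  have h2 : (2 : ℕ) ^ 2 = 2 ^ blockDefect 2 B := by rw [← h1]; norm_num
  exact (Nat.pow_right_injective (le_refl 2) h2).symm

include hM in
/-- the rank is `1` (nilpotent case) or `3` -/
theorem klein_rank {B : Set (IrrCharacter G)} (hB : IsPBlock M B) {P : Subgroup G}
    (hPD : IsDefectGroup 2 M B P) (hV : IsKleinFour P) :
    (IsNilpotentBlock 2 M B ∧ blockRank 2 B = 1) ∨
      (¬ IsNilpotentBlock 2 M B ∧ blockRank 2 B = 3) := by
  haveI : Fact (Nat.Prime 2) := ⟨Nat.prime_two⟩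
  have hab : ∀ x ∈ P, ∀ y ∈ P, x * y = y * x := fun x hx y hy => klein_comm P hV hx hy
  obtain ⟨e, hmax, hfree, hiff⟩ := klein_setup hM hB hPD hV
  have hk := Cfsg.Agent.Lib.Helper78.card_eq_four_of_defect_two hM hB (klein_defect hM hB hPD hV)
  by_cases hnil : IsNilpotentBlock 2 M B
  · exact Or.inl ⟨hnil, (abnil hM hnil (abelian_all_defect hM hB hPD hab)).1⟩
  · refine Or.inr ⟨hnil, ?_⟩
    have hnot : ¬ stabP P e ≤ Cn P := fun h => hnil (hiff.2 h)
    obtain ⟨t, ht, htC⟩ := SetLike.not_le_iff_exists.1 hnot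
    have hP1 : P ≠ ⊥ := by
      intro h
      have h4 := IsKleinFour.card_four (G := P)
      rw [h, Subgroup.card_bot] at h4
      omega
    have htrans : ∀ u ∈ P, u ≠ 1 → ∀ u' ∈ P, u' ≠ 1 → ∃ s ∈ stabP P e, s * u * s⁻¹ = u' := by
      intro u hu hu1 u' hu' hu1'
      exact klein_trans hV (stabP_le_Nn P e) hfree ht htC hu hu1 hu' hu1'
    have := card_eq_rank_add_one hM hB hmax hPD hP1 hab hfree htrans
    omega

include hM in
/-- all the data of a nontrivial subsection -/
theorem klein_subsection {B : Set (IrrCharacter G)} (hB : IsPBlock M B) {P : Subgroup G}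
    (hPD : IsDefectGroup 2 M B P) (hV : IsKleinFour P) {u : G}
    (hu : ∃ k : ℕ, orderOf u = 2 ^ k) (hu1 : u ≠ 1)
    {b : Set (IrrCharacter (Subgroup.centralizer ({u} : Set G)))}
    (hind : IsInducedBlock M (Subgroup.centralizer ({u} : Set G)) b B) :
    ∃ (φ : Subgroup.centralizer ({u} : Set G) → ℂ) (a : IrrCharacter G → ℤ),
      (∀ ζ ∈ b, ∀ s, IsPRegular 2 s →
        (ζ : Subgroup.centralizer ({u} : Set G) → ℂ) s = φ s) ∧
      SRel B a ∧
      (∀ χ : IrrCharacter G, ∀ s, IsPRegular 2 s →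
        Th (Subgroup.centralizer ({u} : Set G)) b u (χ : G → ℂ) s = (a χ : ℂ) * φ s) ∧
      blockDefect 2 b = 2 := by
  haveI : Fact (Nat.Prime 2) := ⟨Nat.prime_two⟩
  haveI : Fintype (Subgroup.centralizer ({u} : Set G)) := Fintype.ofFinite _
  have hab : ∀ x ∈ P, ∀ y ∈ P, x * y = y * x := fun x hx y hy => klein_comm P hV hx hy
  obtain ⟨e, hmax, hfree, -⟩ := klein_setup hM hB hPD hV
  have hdB := klein_defect hM hB hPD hV
  obtain ⟨⟨g, hg⟩, ⟨n, D⟩, hd⟩ := subsection_major hM hB hPD hab hu hind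
  have hu2 : u * u = 1 := by
    have h1 := klein_sq P hV hg
    calc u * u = g * ((g⁻¹ * u * g) * (g⁻¹ * u * g)) * g⁻¹ := by group
      _ = 1 := by rw [h1]; group
  have hl := (subsection_rank_one_of_free hM hmax hPD hab hfree hu hu1 hind).2
  obtain ⟨φ, a, h1, h2, h3⟩ := exists_sign D hu2 (hd.trans hdB) hdB hl
  have hreg1 : IsPRegular 2 (1 : Subgroup.centralizer ({u} : Set G)) := by
    unfold IsPRegular; simp
  obtain ⟨ζ₀, hζ₀⟩ := isPBlock_nonempty hM hind.1
  have hφ1 : φ 1 ≠ 0 := by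
    rw [← h1 ζ₀ hζ₀ 1 hreg1]; exact irr_one_ne_zero ζ₀.2
  exact ⟨φ, a, h1, ⟨h2, fun t ht => sign_rel D hu1 hφ1 (fun χ => h3 χ 1 hreg1) ht⟩, h3,
    hd.trans hdB⟩

include hM in
/-- **the numerical data of a block with Klein four defect group** -/
theorem kdata_of_klein {B : Set (IrrCharacter G)} (hB : IsPBlock M B) {P : Subgroup G}
    (hPD : IsDefectGroup 2 M B P) (hV : IsKleinFour P) : KData M B := by
  classical
  have hp := Nat.prime_two
  refine ⟨Cfsg.Agent.Lib.Helper78.card_eq_four_of_defect_two hM hB (klein_defect hM hB hPD hV), ?_⟩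
  intro x hx
  obtain ⟨u, hux⟩ := exists_isPPart hp x
  have hu1 : u ≠ 1 := isPPart_ne_one_of_singular (by unfold IsPRegular at hx; tauto) hux
  obtain ⟨s, hus, hcomm, hupow, hsreg⟩ := hux
  haveI : Fintype (Subgroup.centralizer ({u} : Set G)) := Fintype.ofFinite _
  have : Finite (IrrCharacter (Subgroup.centralizer ({u} : Set G))) := finite_irrCharacter
  haveI : Fintype (Set (IrrCharacter (Subgroup.centralizer ({u} : Set G)))) := Fintype.ofFinite _
  have hsH : s ∈ Subgroup.centralizer ({u} : Set G) := by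
    rw [Subgroup.mem_centralizer_iff]
    intro v hv
    rw [Set.mem_singleton_iff.1 hv]
    exact hcomm
  have hs' : IsPRegular 2 (⟨s, hsH⟩ : Subgroup.centralizer ({u} : Set G)) := by
    unfold IsPRegular; rwa [Subgroup.orderOf_mk]
  have hdata : ∀ b : {b : Set (IrrCharacter (Subgroup.centralizer ({u} : Set G))) //
      IsInducedBlock M (Subgroup.centralizer ({u} : Set G)) b B}, _ :=
    fun b => klein_subsection hM hB hPD hV hupow hu1 b.2
  choose φ a h1 h2 h3 h4 using hdata
  refine ⟨_, Fintype.ofFinite _, a, fun b => φ b ⟨s, hsH⟩, h2, ?_, ?_, ?_⟩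
  · intro b
    obtain ⟨ζ₀, hζ₀⟩ := isPBlock_nonempty hM b.2.1
    show MemLocalRing M (φ b ⟨s, hsH⟩)
    rw [← h1 b ζ₀ hζ₀ _ hs']
    exact irr_memLocalRing hM ζ₀ _
  · intro b
    obtain ⟨ζ₀, hζ₀⟩ := isPBlock_nonempty hM b.2.1
    have h5 := pow_defect_mul_div_card hM hζ₀ (⟨s, hsH⟩ : Subgroup.centralizer ({u} : Set G))
    rw [h4 b, card_centralizer_section hcomm hupow hp hsreg hsH, hus, h1 b ζ₀ hζ₀ _ hs'] at h5
    convert h5 using 2
    norm_num
  · intro χ hχ
    have hcm : ∀ c : Subgroup.centralizer ({u} : Set G), u * (c : G) = (c : G) * u :=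
      comm_centralizer_singleton u
    have hcl := shift_classFunction (Subgroup.centralizer ({u} : Set G)) hcm χ
    have e1 := eq_sum_blockPart hM hcl (⟨s, hsH⟩ : Subgroup.centralizer ({u} : Set G))
    simp only [hus] at e1
    rw [e1]
    have e2 : ∀ b : Set (IrrCharacter (Subgroup.centralizer ({u} : Set G))),
        (if IsPBlock M b then blockPart b
          (fun c : Subgroup.centralizer ({u} : Set G) => (χ : G → ℂ) (u * (c : G))) ⟨s, hsH⟩ else 0)
        = (if IsInducedBlock M (Subgroup.centralizer ({u} : Set G)) b B then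
          Th (Subgroup.centralizer ({u} : Set G)) b u (χ : G → ℂ) ⟨s, hsH⟩ else 0) := by
      intro b
      by_cases hind : IsInducedBlock M (Subgroup.centralizer ({u} : Set G)) b B
      · rw [if_pos hind, if_pos hind.1]; rfl
      · rw [if_neg hind]
        split_ifs with hb
        · exact second_main_char hM u hupow B hB χ hχ b
            (inducedBlockDefined_centralizer hM u hupow b hb) hind _ hs'
        · rfl
    simp only [e2]
    rw [← Finset.sum_filter, Finset.sum_subtype (p := fun b =>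
      IsInducedBlock M (Subgroup.centralizer ({u} : Set G)) b B) _ (by simp)]
    apply Finset.sum_congr rfl
    intro b _
    exact h3 b χ _ hs'

include hM in
theorem kr1_of_rank {B : Set (IrrCharacter G)} (hB : IsPBlock M B)
    (hd : blockDefect 2 B = 2) (hl : blockRank 2 B = 1) : KR1 B := by
  obtain ⟨φ, hφ⟩ := rank_one_four hM hB hl hd
  intro χ hχ χ' hχ' t ht
  rw [hφ χ hχ t ht, hφ χ' hχ' t ht]

/-- rank three and four characters: the sign relation is unique up to sign -/
theorem srel_unique {B : Set (IrrCharacter G)} (hcard : Nat.card B = 4)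
    (hl : blockRank 2 B = 3) {a a' : IrrCharacter G → ℤ} (ha : SRel B a) (ha' : SRel B a') :
    (∀ χ ∈ B, a' χ = a χ) ∨ (∀ χ ∈ B, a' χ = - a χ) := by
  classical
  have : Finite (IrrCharacter G) := finite_irrCharacter
  haveI : Fintype B := Fintype.ofFinite _
  set v : B → (G → ℂ) := fun χ => pRegularPart 2 ((χ : IrrCharacter G) : G → ℂ) with hv
  set L := Fintype.linearCombination ℂ v with hL
  have hrange : Module.finrank ℂ (LinearMap.range L) = 3 := by
    have hset : Set.range v
        = (fun χ : IrrCharacter G => pRegularPart 2 (χ : G → ℂ)) '' B := by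
      ext f
      simp only [Set.mem_range, Set.mem_image, hv, Subtype.exists, exists_prop]
    rw [hL, Fintype.range_linearCombination, ← hl, blockRank, hset]
  have hdim : Module.finrank ℂ (B → ℂ) = 4 := by
    rw [Module.finrank_fintype_fun_eq_card, ← Nat.card_eq_fintype_card, hcard]
  have hker : Module.finrank ℂ (LinearMap.ker L) = 1 := by
    have := LinearMap.finrank_range_add_finrank_ker L
    omega
  have hmem : ∀ {c : IrrCharacter G → ℤ}, SRel B c →
      (fun χ : B => ((c χ : ℤ) : ℂ)) ∈ LinearMap.ker L := by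
    intro c hc
    rw [LinearMap.mem_ker, hL, Fintype.linearCombination_apply]
    funext t
    rw [Finset.sum_apply]
    simp only [Pi.smul_apply, smul_eq_mul, hv, Pi.zero_apply]
    by_cases ht : IsPRegular 2 t
    · have h1 := hc.2 t ht
      rw [← finsum_set_coe_eq_finsum_mem, finsum_eq_sum_of_fintype] at h1
      refine (Finset.sum_congr rfl ?_).trans h1
      intro χ _
      rw [pRegularPart_eq]; simp only [if_pos ht]
    · apply Finset.sum_eq_zero
      intro χ _
      rw [pRegularPart_eq]; simp only [if_neg ht, mul_zero]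
  obtain ⟨χ₀, hχ₀⟩ : B.Nonempty := by
    rw [← Set.nonempty_coe_sort, ← Finite.card_pos_iff, hcard]; norm_num
  have hnz : (⟨_, hmem ha⟩ : LinearMap.ker L) ≠ 0 := by
    intro h0
    have h1 := congrFun (congrArg Subtype.val h0) ⟨χ₀, hχ₀⟩
    simp only [ZeroMemClass.coe_zero, Pi.zero_apply, Int.cast_eq_zero] at h1
    rcases ha.1 χ₀ hχ₀ with h | h <;> omega
  obtain ⟨c, hc⟩ := (finrank_eq_one_iff_of_nonzero' _ hnz).1 hker ⟨_, hmem ha'⟩
  have hc' : ∀ χ ∈ B, c * (a χ : ℂ) = (a' χ : ℂ) := by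
    intro χ hχ
    have h1 := congrFun (congrArg Subtype.val hc) ⟨χ, hχ⟩
    simpa using h1
  have hc1 : c = 1 ∨ c = -1 := by
    have h1 := hc' χ₀ hχ₀
    rcases ha.1 χ₀ hχ₀ with h | h <;> rcases ha'.1 χ₀ hχ₀ with h' | h' <;>
      rw [h, h'] at h1 <;> push_cast at h1
    · left; linear_combination h1
    · right; linear_combination h1
    · right; linear_combination -h1
    · left; linear_combination -h1
  rcases hc1 with h | h
  · left
    intro χ hχ
    have := hc' χ hχ
    rw [h, one_mul] at this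
    exact_mod_cast this.symm
  · right
    intro χ hχ
    have := hc' χ hχ
    rw [h] at this
    have h2 : ((a' χ : ℤ) : ℂ) = ((- a χ : ℤ) : ℂ) := by push_cast; rw [← this]; ring
    exact_mod_cast h2

include hM in
theorem kr3_of_rank {B : Set (IrrCharacter G)} (hB : IsPBlock M B) {P : Subgroup G}
    (hPD : IsDefectGroup 2 M B P) (hV : IsKleinFour P) (hl : blockRank 2 B = 3) : KR3 B := by
  haveI : Fact (Nat.Prime 2) := ⟨Nat.prime_two⟩
  have hab : ∀ x ∈ P, ∀ y ∈ P, x * y = y * x := fun x hx y hy => klein_comm P hV hx hy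
  have hcard :=
    Cfsg.Agent.Lib.Helper78.card_eq_four_of_defect_two hM hB (klein_defect hM hB hPD hV)
  have hP1 : P ≠ ⊥ := by
    intro h
    have h4 := IsKleinFour.card_four (G := P)
    rw [h, Subgroup.card_bot] at h4
    omega
  obtain ⟨u, hu, hu1⟩ : ∃ q ∈ P, q ≠ 1 := by
    obtain ⟨q, hq⟩ := Subgroup.ne_bot_iff_exists_ne_one.1 hP1
    exact ⟨(q : G), q.2, fun h => hq (Subtype.ext h)⟩
  obtain ⟨β, ⟨n, D⟩, -⟩ := exists_major_subsection hM hB hPD hab hu
  obtain ⟨φ, a, -, ha, -, -⟩ := klein_subsection hM hB hPD hV ⟨n, D.hn⟩ hu1 D.hind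
  exact ⟨a, ha, fun a' ha' => srel_unique hcard hl ha ha'⟩

end Main

end Cfsg.Agent.Lib.Helper5
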