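import Cfsg.Prelude.Def_Transfer
import Cfsg.Agent.Lib.Helper82.LinCount
import Cfsg.Agent.Lib.Helper82.Codegree
import Cfsg.Agent.Lib.Helper79.Central

set_option autoImplicit false
open Cfsg
open scoped ComplexConjugate commutatorElement

namespace Cfsg.Agent.Lib.Helper5

open Cfsg.Agent.Lib.Helper82 Cfsg.Agent.Lib.Helper79

section
variable {P : Type*} [Group P] [Finite P] {p : ℕ}

theorem es_center_le_ker (hp : p.Prime) (hZ : Nat.card (Subgroup.center P) = p) {χ : P → ℂ}
    (hχ : IsCharacter P χ) {z : P} (hz : z ∈ Subgroup.center P) (hz1 : z ≠ 1) (hk : χ z = χ 1) :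
    ∀ x ∈ Subgroup.center P, χ x = χ 1 := by
  have : Fact p.Prime := ⟨hp⟩
  have h1 : Subgroup.zpowers (⟨z, hz⟩ : Subgroup.center P) = ⊤ :=
    zpowers_eq_top_of_prime_card hZ (by
      intro h
      exact hz1 (congrArg Subtype.val h))
  intro x hx
  have h2 : (⟨x, hx⟩ : Subgroup.center P) ∈ Subgroup.zpowers (⟨z, hz⟩ : Subgroup.center P) := by
    rw [h1]; trivial
  obtain ⟨k, hk'⟩ := Subgroup.mem_zpowers_iff.mp h2
  have h3 : z ^ k = x := by
    have := congrArg Subtype.val hk'
    simpa using this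
  have h4 : z ^ k ∈ charKer χ hχ := Subgroup.zpow_mem _ hk k
  rw [h3] at h4
  exact h4

theorem es_vanish (hp : p.Prime) (hc : commutator P = Subgroup.center P)
    (hZ : Nat.card (Subgroup.center P) = p) {χ : P → ℂ} (hχ : IsIrrCharacter P χ) (h1 : χ 1 ≠ 1)
    {x : P} (hx : x ∉ Subgroup.center P) : χ x = 0 := by
  by_contra hne
  rw [Subgroup.mem_center_iff] at hx
  push Not at hx
  obtain ⟨y, hy⟩ := hx
  set z : P := x⁻¹ * y * x * y⁻¹ with hzdef
  have hzc : z ∈ commutator P := by
    have : z = ⁅x⁻¹, y⁆ := by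
      rw [commutatorElement_def, inv_inv]
    rw [this]
    exact Subgroup.commutator_mem_commutator (Subgroup.mem_top _) (Subgroup.mem_top _)
  have hz : z ∈ Subgroup.center P := hc ▸ hzc
  have hz1 : z ≠ 1 := by
    intro h
    apply hy
    have : x⁻¹ * y * x * y⁻¹ = 1 := h
    have h2 : x⁻¹ * y * x = y := by
      rw [mul_inv_eq_one] at this
      exact this
    calc y * x = x * (x⁻¹ * y * x) := by group
      _ = x * y := by rw [h2]
  have h2 := IsIrrCharacter.mul_central hχ z hz x
  have h3 : x * z = y * x * y⁻¹ := by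
    rw [hzdef]; group
  rw [h3, isChar_conj_eq (isIrr_isChar hχ)] at h2
  have h4 : χ z / χ 1 = 1 := by
    have : (χ z / χ 1 - 1) * χ x = 0 := by
      rw [sub_mul, one_mul, ← h2, sub_self]
    rcases mul_eq_zero.mp this with h | h
    · exact sub_eq_zero.mp h
    · exact absurd h hne
  have h5 : χ z = χ 1 := by
    rw [div_eq_one_iff_eq (IsIrrCharacter.one_ne_zero hχ)] at h4
    exact h4
  apply h1
  rw [isIrr_linear_iff hχ, hc]
  exact es_center_le_ker hp hZ (isIrr_isChar hχ) hz hz1 h5

theorem central_mul_conj {χ : P → ℂ} (hχ : IsIrrCharacter P χ) {z : P}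
    (hz : z ∈ Subgroup.center P) : χ z * conj (χ z) = χ 1 ^ 2 := by
  have h := IsIrrCharacter.mul_central hχ z hz z⁻¹
  rw [inv_mul_cancel, Cfsg.Agent.Lib.Helper20.isCharacter_inv (isIrr_isChar hχ)] at h
  have h0 := IsIrrCharacter.one_ne_zero hχ
  field_simp at h
  rw [← h]

theorem es_degree (hp : p.Prime) (hc : commutator P = Subgroup.center P)
    (hZ : Nat.card (Subgroup.center P) = p) {n : ℕ} (hcard : Nat.card P = p ^ (2 * n + 1))
    {χ : P → ℂ} (hχ : IsIrrCharacter P χ) (h1 : χ 1 ≠ 1) : charDegree χ = p ^ n := by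
  classical
  have := Fintype.ofFinite P
  have h2 := Cfsg.Agent.Lib.Helper20.classInner_irr_self hχ
  unfold classInner at h2
  have h3 : ∀ g : P, χ g * conj (χ g) = if g ∈ Subgroup.center P then χ 1 ^ 2 else 0 := by
    intro g
    split_ifs with hg
    · exact central_mul_conj hχ hg
    · rw [es_vanish hp hc hZ hχ h1 hg, zero_mul]
  rw [Finset.sum_congr rfl (fun g _ => h3 g), Finset.sum_ite, Finset.sum_const_zero, add_zero,
    Finset.sum_const, nsmul_eq_mul] at h2
  have h4 : (Finset.univ.filter (fun g : P => g ∈ Subgroup.center P)).card = p := by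
    rw [← hZ, Nat.card_eq_fintype_card, Fintype.card_subtype]
  rw [h4, hcard, isChar_one_eq (isIrr_isChar hχ)] at h2
  have hp0 : (p : ℂ) ≠ 0 := by exact_mod_cast hp.ne_zero
  have h5 : (p : ℂ) * (charDegree χ : ℂ) ^ 2 = (p : ℂ) ^ (2 * n + 1) := by
    have h6 : ((p ^ (2 * n + 1) : ℕ) : ℂ) ≠ 0 := by
      push_cast
      exact pow_ne_zero _ hp0
    rw [inv_mul_eq_one₀ h6] at h2
    rw [← h2]
    push_cast
    rfl
  have h6 : p * charDegree χ ^ 2 = p ^ (2 * n + 1) := by exact_mod_cast h5
  have h7 : charDegree χ ^ 2 = (p ^ n) ^ 2 := by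
    have : p * charDegree χ ^ 2 = p * (p ^ n) ^ 2 := by
      rw [h6]; ring
    exact Nat.eq_of_mul_eq_mul_left hp.pos this
  exact Nat.pow_left_injective (n := 2) (by norm_num) h7

theorem es_n_pos (hp : p.Prime) (hc : commutator P = Subgroup.center P)
    (hZ : Nat.card (Subgroup.center P) = p) {n : ℕ} (hcard : Nat.card P = p ^ (2 * n + 1)) :
    0 < n := by
  rcases Nat.eq_zero_or_pos n with h | h
  · exfalso
    subst h
    have h1 : Subgroup.center P = ⊤ := by
      apply Subgroup.eq_top_of_card_eq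
      rw [hZ, hcard]; simp
    have h2 : commutator P = ⊥ := by
      rw [commutator_def, Subgroup.commutator_eq_bot_iff_le_centralizer, Subgroup.coe_top,
        Subgroup.centralizer_univ, h1]
    rw [hc] at h2
    rw [h2] at hZ
    simp at hZ
    exact hp.one_lt.ne hZ
  · exact h

end

end Cfsg.Agent.Lib.Helper5
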