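import Cfsg.Agent.Lib.Helper79.LinTwist

set_option autoImplicit false
set_option linter.unusedSectionVars false
set_option linter.style.haveILetI false

/-! Characters over a normal subgroup with abelian quotient: restriction and extensions. -/

namespace Cfsg.Agent.Lib.Helper5

open Cfsg ComplexConjugate Cfsg.Agent.Lib.Helper19 Cfsg.Agent.Lib.Helper20 Cfsg.Agent.Lib.Helper82
  Cfsg.Agent.Lib.Helper79

section AbQuot

variable {G : Type*} [Group G] [Fintype G] (N : Subgroup G) [N.Normal] [Fintype N]

/-- if no nontrivial linear character of the abelian group `G/N` fixes `χ`, then `χ_N` is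
irreducible -/
theorem restrict_irr_of_no_twist (hab : ∀ x y : G, x * y * x⁻¹ * y⁻¹ ∈ N) {χ : G → ℂ}
    (hχ : IsIrrCharacter G χ)
    (hNV : ∀ a : G →* ℂˣ, (∀ n ∈ N, a n = 1) → (∀ g, (a g : ℂ) * χ g = χ g) → a = 1) :
    IsIrrCharacter N (fun n : N => χ n) := by
  classical
  set Ξ : G → ℂ := fun g => χ g * conj (χ g) with hΞdef
  have hχc := isCharacter_of_isIrrCharacter hχ
  have hΞ : IsCharacter G Ξ := isCharacter_mul hχc (isCharacter_conj hχc)
  have hΦ : IsCharacter G (navg N Ξ) := navg_isCharacter N hΞ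
  have h1irr : IsIrrCharacter G (homFun (1 : G →* ℂˣ)) :=
    isChar_linear_isIrr (isCharacter_homFun 1).1 (isCharacter_homFun 1).2
  obtain ⟨m, Φ', hm, hΦ', hΦeq, hΦ0⟩ := IsCharacter.exists_eq_smul_add hΦ h1irr
  have hm1 : classInner (navg N Ξ) (homFun (1 : G →* ℂˣ)) = 1 := by
    rw [classInner_navg_left N Ξ _ (fun n g => rfl), ← classInner_irr_self hχ]
    unfold classInner
    congr 1
    apply Finset.sum_congr rfl
    intro g _
    simp [hΞdef, homFun]
  have hΦ'1 : Φ' 1 = 0 := by
    by_contra h
    obtain ⟨α, hα, hαc⟩ := exists_constituent hΦ' h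
    have hne : homFun (1 : G →* ℂˣ) ≠ α := by
      rintro rfl; exact hαc hΦ0
    have hαΦ : classInner (navg N Ξ) α ≠ 0 := by
      rw [hΦeq, classInner_add_left, classInner_smul_left, classInner_irr_ne h1irr hα hne,
        mul_zero, zero_add]
      exact hαc
    have hnav : navg N α = α := by
      rcases navg_irr N hα with h1 | h1
      · exact h1
      · exfalso
        apply hαΦ
        rw [classInner_navg_adjoint, h1, classInner_zero_right]
    have hαN : ∀ (n : N) (g : G), α ((n : G) * g) = α g := by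
      intro n g
      rw [← hnav]
      exact navg_mul_left N α n g
    obtain ⟨a, ha, haN⟩ := exists_hom_of_irr_of_abelian_quotient N hab hα (by
      intro n hn
      have := hαN ⟨n, hn⟩ 1
      simpa using this)
    have h2 : classInner Ξ α ≠ 0 := by
      rw [← classInner_navg_left N Ξ α hαN]
      exact hαΦ
    have hirr : IsIrrCharacter G (homFun a * χ) :=
      isIrr_linear_mul (isCharacter_homFun a).1 (isCharacter_homFun a).2 hχ
    have h3 : classInner χ (homFun a * χ) ≠ 0 := by
      intro h0
      apply h2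
      rw [← h0, ha]
      unfold classInner
      congr 1
      apply Finset.sum_congr rfl
      intro g _
      simp only [hΞdef, Pi.mul_apply, map_mul]
      ring
    have h4 : χ = homFun a * χ := by
      by_contra hne'
      exact h3 (classInner_irr_ne hχ hirr hne')
    have h5 : a = 1 := hNV a haN (fun g => by
      have := congrFun h4 g
      rw [Pi.mul_apply] at this
      exact this.symm)
    apply hne
    rw [ha, h5]
  rw [isIrrCharacter_iff]
  refine ⟨isCharacter_restrict hχc N, ?_⟩
  rw [← navg_mul_conj_one N χ χ]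
  show navg N Ξ 1 = 1
  have hmm : (m : ℂ) = 1 := by rw [← hm, hm1]
  rw [hΦeq, Pi.add_apply, Pi.smul_apply, hΦ'1, hmm]
  simp [homFun]

omit [Fintype N] in
/-- the number of linear characters of an abelian quotient -/
theorem card_homs_trivial_on (hab : ∀ x y : G, x * y * x⁻¹ * y⁻¹ ∈ N) :
    Nat.card {a : G →* ℂˣ // ∀ n ∈ N, a n = 1} = N.index := by
  letI : CommGroup (G ⧸ N) :=
    { (inferInstance : Group (G ⧸ N)) with
      mul_comm := by
        intro x y
        induction x using QuotientGroup.induction_on with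
        | H x =>
          induction y using QuotientGroup.induction_on with
          | H y =>
            rw [← QuotientGroup.mk_mul, ← QuotientGroup.mk_mul, QuotientGroup.eq]
            have := hab y⁻¹ x⁻¹
            simpa [mul_assoc] using this }
  haveI : NeZero ((Monoid.exponent (G ⧸ N) : ℕ) : ℂ) := by
    refine ⟨?_⟩
    have : Monoid.exponent (G ⧸ N) ≠ 0 := Monoid.exponent_ne_zero_of_finite
    exact_mod_cast this
  rw [Subgroup.index_eq_card, ← CommGroup.card_monoidHom_of_hasEnoughRootsOfUnity (G ⧸ N) ℂ]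
  apply Nat.card_congr
  refine ⟨fun a => QuotientGroup.lift N a.1 (fun n hn => a.2 n hn),
    fun φ => ⟨φ.comp (QuotientGroup.mk' N), fun n hn => by
      rw [MonoidHom.comp_apply, QuotientGroup.mk'_apply, (QuotientGroup.eq_one_iff n).2 hn,
        map_one]⟩, ?_, ?_⟩
  · intro a
    apply Subtype.ext
    ext g
    rfl
  · intro φ
    apply MonoidHom.ext
    intro x
    induction x using QuotientGroup.induction_on with
    | H x => rfl

/-- the extensions of `χ₀_N` are the twists of `χ₀` -/
theorem card_extensions (hab : ∀ x y : G, x * y * x⁻¹ * y⁻¹ ∈ N) (χ₀ : IrrCharacter G)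
    (hirr : IsIrrCharacter N (fun n : N => (χ₀ : G → ℂ) n))
    (hNV : ∀ a : G →* ℂˣ, (∀ n ∈ N, a n = 1) →
      (∀ g, (a g : ℂ) * (χ₀ : G → ℂ) g = (χ₀ : G → ℂ) g) → a = 1) :
    Nat.card {χ : IrrCharacter G // ∀ n : N, (χ : G → ℂ) n = (χ₀ : G → ℂ) n} = N.index := by
  rw [← card_homs_trivial_on N hab]
  apply Nat.card_congr
  symm
  apply Equiv.ofBijective (fun a : {a : G →* ℂˣ // ∀ n ∈ N, a n = 1} =>
    (⟨⟨homFun a.1 * (χ₀ : G → ℂ),
      isIrr_linear_mul (isCharacter_homFun a.1).1 (isCharacter_homFun a.1).2 χ₀.2⟩, fun n => by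
        show homFun a.1 (n : G) * (χ₀ : G → ℂ) n = _
        rw [homFun_apply, a.2 n n.2]; simp⟩ :
      {χ : IrrCharacter G // ∀ n : N, (χ : G → ℂ) n = (χ₀ : G → ℂ) n}))
  constructor
  · intro a a' h
    have h1 : homFun a.1 * (χ₀ : G → ℂ) = homFun a'.1 * (χ₀ : G → ℂ) :=
      congrArg (fun x => ((x.1 : IrrCharacter G) : G → ℂ)) h
    have h2 : a'.1⁻¹ * a.1 = 1 := by
      apply hNV
      · intro n hn
        rw [MonoidHom.mul_apply, MonoidHom.inv_apply, a.2 n hn, a'.2 n hn]; simp
      · intro g
        have := congrFun h1 g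
        simp only [Pi.mul_apply, homFun_apply] at this
        rw [MonoidHom.mul_apply, MonoidHom.inv_apply]
        push_cast
        rw [mul_assoc, this, ← mul_assoc]
        simp
    apply Subtype.ext
    ext g
    have h3 := congrArg (fun f : G →* ℂˣ => f g) h2
    simp only [MonoidHom.mul_apply, MonoidHom.inv_apply, MonoidHom.one_apply] at h3
    rw [inv_mul_eq_one] at h3
    rw [h3]
  · rintro ⟨χ, hχ⟩
    have h : classInner (fun n : N => (χ : G → ℂ) n) (fun n : N => (χ₀ : G → ℂ) n) ≠ 0 := by
      have : (fun n : N => (χ : G → ℂ) n) = fun n : N => (χ₀ : G → ℂ) n := funext hχ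
      rw [this, classInner_irr_self hirr]
      exact one_ne_zero
    obtain ⟨a, haN, ha⟩ := exists_linear_twist N hab χ₀.2 χ.2 h
    refine ⟨⟨a, haN⟩, ?_⟩
    apply Subtype.ext
    apply Subtype.ext
    funext g
    exact (ha g).symm

end AbQuot

end Cfsg.Agent.Lib.Helper5
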