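import Cfsg.Agent.Lib.Helper5.KleinSylow
import Cfsg.Agent.Lib.Helper5.CycAct

set_option autoImplicit false
set_option linter.unusedSectionVars false
set_option linter.style.haveILetI false

/-! Groups of odd order (modulo the centraliser) acting on a Klein four subgroup. -/

namespace Cfsg.Agent.Lib.Helper5

section KleinAct

variable {G : Type*} [Group G] [Finite G]

theorem klein_third (P : Subgroup G) (hP : IsKleinFour P) {u v z : G} (hu : u ∈ P) (hv : v ∈ P)
    (hz : z ∈ P) (hu1 : u ≠ 1) (hv1 : v ≠ 1) (huv : u ≠ v) (hz1 : z ≠ 1) (hzu : z ≠ u)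
    (hzv : z ≠ v) : z = u * v := by
  have := IsKleinFour.eq_mul_of_ne_all (x := (⟨u, hu⟩ : P)) (y := ⟨v, hv⟩) (z := ⟨z, hz⟩)
    (fun h => hu1 (congrArg Subtype.val h)) (fun h => hv1 (congrArg Subtype.val h))
    (fun h => huv (congrArg Subtype.val h)) (fun h => hz1 (congrArg Subtype.val h))
    (fun h => hzu (congrArg Subtype.val h)) (fun h => hzv (congrArg Subtype.val h))
  exact congrArg Subtype.val this

theorem conj_mem_of_normalizer {P : Subgroup G} {g y : G}
    (hg : g ∈ Subgroup.normalizer (P : Set G)) (hy : y ∈ P) : g * y * g⁻¹ ∈ P :=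
  (Subgroup.mem_normalizer_iff.1 hg y).1 hy

/-- an element normalising a four-group and fixing an involution of it has its square in the
centraliser -/
theorem klein_fix_sq (P : Subgroup G) (hP : IsKleinFour P) {g : G}
    (hg : g ∈ Subgroup.normalizer (P : Set G)) {x : G} (hx : x ∈ P) (hx1 : x ≠ 1)
    (hfix : g * x * g⁻¹ = x) : g ^ 2 ∈ Subgroup.centralizer (P : Set G) := by
  have key : ∀ y ∈ P, g * (g * y * g⁻¹) * g⁻¹ = y := by
    intro y hy
    by_cases hy1 : y = 1
    · subst hy1; group
    by_cases hyx : y = x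
    · subst hyx; rw [hfix, hfix]
    by_cases hyy : g * y * g⁻¹ = y
    · rw [hyy, hyy]
    have h1 : g * y * g⁻¹ = x * y := by
      apply klein_third P hP hx hy (conj_mem_of_normalizer hg hy) hx1 hy1 (Ne.symm hyx)
        (conj_ne_one hy1) _ hyy
      intro h
      rw [← hfix] at h
      exact hyx (conj_inj' h)
    calc g * (g * y * g⁻¹) * g⁻¹ = g * (x * y) * g⁻¹ := by rw [h1]
      _ = (g * x * g⁻¹) * (g * y * g⁻¹) := by group
      _ = x * (x * y) := by rw [hfix, h1]
      _ = (x * x) * y := by group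
      _ = y := by rw [klein_sq P hP hx, one_mul]
  rw [Subgroup.mem_centralizer_iff]
  intro y hy
  have := key y hy
  calc y * g ^ 2 = (g * (g * y * g⁻¹) * g⁻¹) * g ^ 2 := by rw [this]
    _ = g ^ 2 * y := by rw [pow_two]; group

/-- free action -/
theorem klein_free {P T : Subgroup G} (hP : IsKleinFour P)
    (hTN : T ≤ Subgroup.normalizer (P : Set G))
    (hTp : ∀ S : Subgroup G, S ≤ T → IsPGroup 2 S → S ≤ Subgroup.centralizer (P : Set G))
    {g : G} (hg : g ∈ T) {x : G} (hx : x ∈ P) (hx1 : x ≠ 1) (hfix : g * x * g⁻¹ = x) :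
    g ∈ Subgroup.centralizer (P : Set G) := by
  haveI : Fact (Nat.Prime 2) := ⟨Nat.prime_two⟩
  have hcomm : Commute g x := by
    calc g * x = (g * x * g⁻¹) * g := by group
      _ = x * g := by rw [hfix]
  apply mem_of_p_and_p' (p := 2)
  · intro j hj
    have hfix' : g ^ j * x * (g ^ j)⁻¹ = x := by
      rw [(hcomm.pow_left j).eq]; group
    have hn := klein_fix_sq P hP (hTN (T.pow_mem hg j)) hx hx1 hfix'
    have hcop : (2 : ℕ).Coprime (orderOf (g ^ j)) :=
      (Nat.Prime.coprime_iff_not_dvd Nat.prime_two).2 hj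
    obtain ⟨m, hm⟩ := exists_pow_eq_self_of_coprime hcop
    rw [← hm]
    exact Subgroup.pow_mem _ hn m
  · intro j hj
    exact hTp _ (by rw [Subgroup.zpowers_le]; exact T.pow_mem hg j) hj (Subgroup.mem_zpowers _)

/-- transitivity on the involutions as soon as the action is free and nontrivial -/
theorem klein_trans {P T : Subgroup G} (hP : IsKleinFour P)
    (hTN : T ≤ Subgroup.normalizer (P : Set G))
    (hfree : ∀ g ∈ T, ∀ x ∈ P, x ≠ 1 → g * x * g⁻¹ = x → g ∈ Subgroup.centralizer (P : Set G))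
    {t : G} (ht : t ∈ T) (htC : t ∉ Subgroup.centralizer (P : Set G))
    {u u' : G} (hu : u ∈ P) (hu1 : u ≠ 1) (hu' : u' ∈ P) (hu1' : u' ≠ 1) :
    ∃ s ∈ T, s * u * s⁻¹ = u' := by
  have hnofix : ∀ x ∈ P, x ≠ 1 → t * x * t⁻¹ ≠ x := fun x hx hx1 h => htC (hfree t ht x hx hx1 h)
  set v := t * u * t⁻¹ with hv
  have hvP : v ∈ P := conj_mem_of_normalizer (hTN ht) hu
  have hv1 : v ≠ 1 := conj_ne_one hu1
  have hvu : v ≠ u := hnofix u hu hu1
  by_cases h1 : u' = u
  · exact ⟨1, T.one_mem, by rw [h1]; group⟩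
  by_cases h2 : u' = v
  · exact ⟨t, ht, by rw [h2]⟩
  have h3 : u' = u * v := klein_third P hP hu hvP hu' hu1 hv1 (Ne.symm hvu) hu1' h1 h2
  have hw : t * v * t⁻¹ = u * v := by
    apply klein_third P hP hu hvP (conj_mem_of_normalizer (hTN ht) hvP) hu1 hv1 (Ne.symm hvu)
      (conj_ne_one hv1) _ (hnofix v hvP hv1)
    intro h
    -- then `t` fixes `u * v`
    have huv1 : u * v ≠ 1 := by
      intro h0
      apply hvu
      calc v = (u * u) * v := by rw [klein_sq P hP hu, one_mul]
        _ = u * (u * v) := by group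
        _ = u := by rw [h0, mul_one]
    apply hnofix (u * v) (P.mul_mem hu hvP) huv1
    calc t * (u * v) * t⁻¹ = (t * u * t⁻¹) * (t * v * t⁻¹) := by group
      _ = v * u := by rw [h]
      _ = u * v := klein_comm P hP hvP hu
  refine ⟨t * t, T.mul_mem ht ht, ?_⟩
  calc t * t * u * (t * t)⁻¹ = t * (t * u * t⁻¹) * t⁻¹ := by group
    _ = u' := by rw [← hv, hw, h3]

/-- the index of the centraliser is `1` or `3` -/
theorem klein_index {P T : Subgroup G} (hP : IsKleinFour P)
    (hTN : T ≤ Subgroup.normalizer (P : Set G)) (hCT : Subgroup.centralizer (P : Set G) ≤ T)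
    (hTp : ∀ S : Subgroup G, S ≤ T → IsPGroup 2 S → S ≤ Subgroup.centralizer (P : Set G)) :
    (Subgroup.centralizer (P : Set G)).relIndex T = 1 ∨
      (Subgroup.centralizer (P : Set G)).relIndex T = 3 := by
  haveI : Fact (Nat.Prime 2) := ⟨Nat.prime_two⟩
  set C := Subgroup.centralizer (P : Set G) with hC
  -- odd
  have hodd : ¬ 2 ∣ C.relIndex T := by
    obtain ⟨S⟩ : Nonempty (Sylow 2 T) := inferInstance
    have hS1 : (S : Subgroup T).map T.subtype ≤ T := by
      rintro _ ⟨s, _, rfl⟩; exact s.2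
    have hS2 : IsPGroup 2 ((S : Subgroup T).map T.subtype) := S.2.map _
    have hS3 := hTp _ hS1 hS2
    have h1 := Subgroup.relIndex_mul_relIndex _ _ _ hS3 hCT
    have h2 : ((S : Subgroup T).map T.subtype).relIndex T = (S : Subgroup T).index := by
      rw [Subgroup.relIndex, Subgroup.subgroupOf,
        Subgroup.comap_map_eq_self_of_injective (Subgroup.subtype_injective T)]
    intro hdvd
    apply S.not_dvd_index
    rw [← h2, ← h1]
    exact Dvd.dvd.mul_left hdvd _
  -- divides `24`
  have hdvd : C.relIndex T ∣ 24 := by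
    let ψ : T →* MulAut P := P.normalizerMonoidHom.comp (Subgroup.inclusion hTN)
    have hker : ψ.ker = C.subgroupOf T := by
      ext t
      rw [MonoidHom.mem_ker, Subgroup.mem_subgroupOf]
      have h1 : ψ t = 1 ↔ Subgroup.inclusion hTN t ∈ P.normalizerMonoidHom.ker := by
        rw [MonoidHom.mem_ker]; rfl
      rw [h1, Subgroup.normalizerMonoidHom_ker, Subgroup.mem_subgroupOf]
      rfl
    have h1 : C.relIndex T = Nat.card (T ⧸ ψ.ker) := by
      rw [Subgroup.relIndex, Subgroup.index_eq_card, hker]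
    have h2 : Nat.card (Equiv.Perm P) = 24 := by
      classical
      haveI : Fintype P := Fintype.ofFinite P
      rw [Nat.card_eq_fintype_card, Fintype.card_perm, ← Nat.card_eq_fintype_card,
        IsKleinFour.card_four]
      rfl
    rw [h1, ← h2]
    apply Subgroup.card_dvd_of_injective ((MulAut.toPerm P).comp (QuotientGroup.kerLift ψ))
    intro a b hab
    apply QuotientGroup.kerLift_injective ψ
    apply MulEquiv.toEquiv_injective
    exact hab
  have hcop : Nat.Coprime (C.relIndex T) 8 := by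
    have : Nat.Coprime (C.relIndex T) 2 :=
      ((Nat.Prime.coprime_iff_not_dvd Nat.prime_two).2 hodd).symm
    exact Nat.Coprime.pow_right 3 this
  have h3 : C.relIndex T ∣ 3 := by
    apply hcop.dvd_of_dvd_mul_left
    exact hdvd
  exact (Nat.dvd_prime Nat.prime_three).1 h3

end KleinAct

end Cfsg.Agent.Lib.Helper5
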