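import Cfsg.Prelude.Def_Blocks
import Cfsg.Prelude.Def_BlockLocal

set_option autoImplicit false
open Cfsg

/-! Interface for the perfect isometry between a block with Klein four defect group and its Brauer
correspondent: numerical data of such a block. -/

namespace Cfsg.Agent.Lib.Helper5

universe u

/-- a sign vector on `B` which is a relation between the restrictions to `2`-regular elements -/
def SRel {G : Type u} [Group G] (B : Set (IrrCharacter G)) (a : IrrCharacter G → ℤ) : Prop :=
  (∀ χ ∈ B, a χ = 1 ∨ a χ = -1) ∧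
    ∀ t : G, IsPRegular 2 t → ∑ᶠ χ ∈ B, (a χ : ℂ) * (χ : G → ℂ) t = 0

/-- the numerical data of a `2`-block with Klein four defect group -/
structure KData {G : Type u} [Group G] (M : Ideal AlgInt) (B : Set (IrrCharacter G)) : Prop where
  card : Nat.card B = 4
  sing : ∀ x : G, ¬ IsPRegular 2 x →
    ∃ (ι : Type u) (_ : Fintype ι) (a : ι → IrrCharacter G → ℤ) (w : ι → ℂ),
      (∀ i, SRel B (a i)) ∧ (∀ i, MemLocalRing M (w i)) ∧
      (∀ i, MemLocalRing M (4 * w i / (Nat.card (Subgroup.centralizer ({x} : Set G)) : ℂ))) ∧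
      ∀ χ ∈ B, (χ : G → ℂ) x = ∑ i, (a i χ : ℂ) * w i

/-- rank one: all members agree on `2`-regular elements -/
def KR1 {G : Type u} [Group G] (B : Set (IrrCharacter G)) : Prop :=
  ∀ χ ∈ B, ∀ χ' ∈ B, ∀ t : G, IsPRegular 2 t → (χ : G → ℂ) t = (χ' : G → ℂ) t

/-- rank three: the sign relation exists and is unique up to sign -/
def KR3 {G : Type u} [Group G] (B : Set (IrrCharacter G)) : Prop :=
  ∃ a, SRel B a ∧ ∀ a', SRel B a' → (∀ χ ∈ B, a' χ = a χ) ∨ (∀ χ ∈ B, a' χ = - a χ)

end Cfsg.Agent.Lib.Helper5
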