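import Cfsg.Agent.Lib.Helper5.KleinSign
import Cfsg.Agent.Lib.Helper5.KleinData

set_option autoImplicit false
set_option linter.unusedSectionVars false
set_option linter.style.haveILetI false
open Cfsg
open scoped ComplexConjugate
open Cfsg.Agent.Lib.Helper20 Cfsg.Agent.Lib.Helper81 Cfsg.Agent.Lib.Helper80
open Cfsg.Agent.Lib.Helper80.GA

/-! Auxiliary lemmas for the numerical data of blocks with Klein four defect groups. -/

namespace Cfsg.Agent.Lib.Helper5

section Aux

variable {p : ℕ} {M : Ideal AlgInt} {G : Type*} [Group G] [Fintype G]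

theorem finsum_mem_eq_sum_ite {α : Type*} [Fintype α] (B : Set α) [DecidablePred (· ∈ B)]
    (f : α → ℂ) : ∑ᶠ x ∈ B, f x = ∑ x, if x ∈ B then f x else 0 := by
  simp only [finsum_eq_sum_of_fintype, finsum_eq_if]

theorem irr_memLocalRing (hM : IsPModular p M) (χ : IrrCharacter G) (g : G) :
    MemLocalRing M ((χ : G → ℂ) g) :=
  memLocalRing_of_isIntegral hM (isCharacter_isIntegral (isCharacter_of_isIrrCharacter χ.2) g)

/-- `p ^ d χ(g) / |C(g)|` is a local integer for `χ` in a block of defect `d` -/
theorem pow_defect_mul_div_card (hM : IsPModular p M) {B : Set (IrrCharacter G)}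
    {ψ : IrrCharacter G} (hψ : ψ ∈ B) (g : G) :
    MemLocalRing M ((p : ℂ) ^ blockDefect p B * (ψ : G → ℂ) g /
      (Nat.card (Subgroup.centralizer ({g} : Set G)) : ℂ)) := by
  have h1 := centralChar_memLocalRing hM ψ g
  have h2 := (unit_factor (B := B) hM hψ).1
  have h3 := memLocalRing_pow hM (memLocalRing_natCast hM p) (blockHeight p B (ψ : G → ℂ))
  have h4 := memLocalRing_mul hM h1 (memLocalRing_mul hM h3 h2)
  convert h4 using 1
  have hC : (Nat.card (Subgroup.centralizer ({g} : Set G)) : ℂ) ≠ 0 := by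
    exact_mod_cast Nat.card_pos.ne'
  have hI : ((Subgroup.centralizer ({g} : Set G)).index : ℂ) ≠ 0 := by
    exact_mod_cast (Subgroup.index_ne_zero_of_finite)
  have hN : (Nat.card G : ℂ) = (Nat.card (Subgroup.centralizer ({g} : Set G)) : ℂ) *
      ((Subgroup.centralizer ({g} : Set G)).index : ℂ) := by
    exact_mod_cast (Subgroup.card_mul_index _).symm
  have h10 := irr_one_ne_zero ψ.2
  have hp0 : (p : ℂ) ≠ 0 := by exact_mod_cast hM.1.ne_zero
  unfold centralChar
  push_cast
  rw [← irr_one_eq, hN]
  field_simp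

/-- the centraliser of `u s` is the centraliser of `s` in the centraliser of `u` -/
theorem card_centralizer_section {u s : G} (hcomm : Commute u s)
    (hu : ∃ k : ℕ, orderOf u = p ^ k) (hp : p.Prime) (hs : ¬ p ∣ orderOf s)
    (hsH : s ∈ Subgroup.centralizer ({u} : Set G)) :
    Nat.card (Subgroup.centralizer
      ({(⟨s, hsH⟩ : Subgroup.centralizer ({u} : Set G))} : Set (Subgroup.centralizer ({u} : Set G))))
      = Nat.card (Subgroup.centralizer ({u * s} : Set G)) := by
  obtain ⟨k, hk⟩ := hu
  have hcop : Nat.Coprime (orderOf s) (orderOf u) := by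
    rw [hk]
    exact Nat.Coprime.pow_right _ ((Nat.Prime.coprime_iff_not_dvd hp).2 hs).symm
  obtain ⟨j, hj⟩ := exists_pow_eq_self_of_coprime hcop
  obtain ⟨j', hj'⟩ := exists_pow_eq_self_of_coprime hcop.symm
  have hu' : u = ((u * s) ^ orderOf s) ^ j := by
    rw [hcomm.mul_pow, pow_orderOf_eq_one, mul_one, hj]
  have hs' : s = ((u * s) ^ orderOf u) ^ j' := by
    rw [hcomm.mul_pow, pow_orderOf_eq_one, one_mul, hj']
  rw [← Subgroup.card_map_of_injective (Subgroup.subtype_injective
    (Subgroup.centralizer ({u} : Set G)))]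
  have hset : (Subgroup.centralizer
      ({(⟨s, hsH⟩ : Subgroup.centralizer ({u} : Set G))} :
        Set (Subgroup.centralizer ({u} : Set G)))).map
      (Subgroup.centralizer ({u} : Set G)).subtype = Subgroup.centralizer ({u * s} : Set G) := by
    ext g
    simp only [Subgroup.mem_map, Subgroup.mem_centralizer_iff, Set.mem_singleton_iff, forall_eq,
      Subgroup.coe_subtype]
    constructor
    · rintro ⟨⟨x, hx⟩, hxs, rfl⟩
      have h1 : u * x = x * u := Subgroup.mem_centralizer_iff.1 hx u rfl
      have h2 : s * x = x * s := congrArg Subtype.val hxs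
      show u * s * x = x * (u * s)
      rw [mul_assoc, h2, ← mul_assoc, h1, mul_assoc]
    · intro hg
      have hc : Commute (u * s) g := hg
      have h1 : Commute u g := by rw [hu']; exact (hc.pow_left _).pow_left _
      have h2 : Commute s g := by rw [hs']; exact (hc.pow_left _).pow_left _
      refine ⟨⟨g, Subgroup.mem_centralizer_iff.2 (fun v hv => ?_)⟩, ?_, rfl⟩
      · rw [Set.mem_singleton_iff.1 hv]; exact h1
      · apply Subtype.ext; exact h2
  rw [hset]

/-- the column of a nontrivial subsection is orthogonal to the columns of `p`-regular elements -/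
theorem sign_rel {H : Subgroup G} [Fintype H] {u : G} {n : ℕ} {b : Set (IrrCharacter H)}
    {B : Set (IrrCharacter G)} (D : SubsecData p M H u n b B) (hu1 : u ≠ 1)
    {φ : H → ℂ} {a : IrrCharacter G → ℤ} (hφ1 : φ 1 ≠ 0)
    (hTh : ∀ χ : IrrCharacter G, Th H b u (χ : G → ℂ) 1 = (a χ : ℂ) * φ 1) {t : G}
    (ht : IsPRegular p t) :
    ∑ᶠ χ ∈ B, (a χ : ℂ) * (χ : G → ℂ) t = 0 := by
  classical
  have hM := D.hM
  have : Finite (IrrCharacter G) := finite_irrCharacter
  have : Fintype (IrrCharacter G) := Fintype.ofFinite _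
  have hreg1 : IsPRegular p (1 : H) := by
    unfold IsPRegular; rw [orderOf_one]; exact hM.1.one_lt.ne' ∘ Nat.dvd_one.1
  have key : ∑ χ : IrrCharacter G,
      (if χ ∈ B then conj ((χ : G → ℂ) t) * Th H b u (χ : G → ℂ) 1 else 0) = 0 := by
    have h1 : ∀ χ : IrrCharacter G,
        (if χ ∈ B then conj ((χ : G → ℂ) t) * Th H b u (χ : G → ℂ) 1 else 0)
        = (Nat.card H : ℂ)⁻¹ * ∑ w : H, bS b 1 w * (if χ ∈ B then conj ((χ : G → ℂ) t) *
          pRegularPart p (fun c : H => (χ : G → ℂ) (u * (c : G))) w else 0) := by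
      intro χ
      split_ifs with hχ
      · unfold Th
        rw [blockPart_regular_eq hM b D.hind.1 _ hreg1, Finset.mul_sum, Finset.mul_sum,
          Finset.mul_sum]
        apply Finset.sum_congr rfl; intro w _
        ring
      · simp
    simp only [h1]
    rw [← Finset.mul_sum, Finset.sum_comm]
    rw [Finset.sum_eq_zero, mul_zero]
    intro w _
    rw [← Finset.mul_sum]
    have h2 : ∑ χ : IrrCharacter G, (if χ ∈ B then conj ((χ : G → ℂ) t) *
          pRegularPart p (fun c : H => (χ : G → ℂ) (u * (c : G))) w else 0) = 0 := by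
      by_cases hw : IsPRegular p w
      · have h3 := block_orth hM B D.hind.2.1 (g := u * (w : G)) (h := t) (x := u) (y := 1)
          ⟨w, rfl, D.hcomm w, ⟨n, D.hn⟩, by
            unfold IsPRegular at hw; rwa [Subgroup.orderOf_coe]⟩
          (isPPart_one_of_regular ht) (fun h => hu1 (isConj_one_left.1 h))
        rw [finsum_mem_eq_sum_ite] at h3
        refine (Finset.sum_congr rfl ?_).trans h3
        intro χ _
        split_ifs
        · rw [pRegularPart_eq]; simp only [if_pos hw]; ring
        · rfl
      · apply Finset.sum_eq_zero; intro χ _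
        split_ifs
        · rw [pRegularPart_eq]; simp only [if_neg hw, mul_zero]
        · rfl
    rw [h2, mul_zero]
  have h5 : (∑ χ : IrrCharacter G, (if χ ∈ B then (a χ : ℂ) * conj ((χ : G → ℂ) t) else 0)) * φ 1
      = 0 := by
    rw [Finset.sum_mul]
    refine (Finset.sum_congr rfl ?_).trans key
    intro χ _
    split_ifs
    · rw [hTh]; ring
    · simp
  have h6 := (mul_eq_zero.1 h5).resolve_right hφ1
  rw [finsum_mem_eq_sum_ite]
  have h7 := congrArg conj h6
  rw [map_sum, map_zero] at h7
  refine (Finset.sum_congr rfl ?_).trans h7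
  intro χ _
  split_ifs
  · rw [map_mul, map_intCast, Complex.conj_conj]
  · simp

end Aux

end Cfsg.Agent.Lib.Helper5
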