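import Cfsg.Agent.Lib.Helper5.MajorNV
import Cfsg.Agent.Lib.Helper5.KleinAct
import Cfsg.Agent.Lib.Helper78.DefectTwo

set_option autoImplicit false
set_option linter.unusedSectionVars false
set_option linter.style.haveILetI false
open Cfsg
open scoped ComplexConjugate
open Cfsg.Agent.Lib.Helper20 Cfsg.Agent.Lib.Helper81 Cfsg.Agent.Lib.Helper80
open Cfsg.Agent.Lib.Helper80.GA

/-! Sign vectors attached to the subsections of a block with Klein four defect group. -/

namespace Cfsg.Agent.Lib.Helper5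

section Major

variable {p : ℕ} [Fact p.Prime] {M : Ideal AlgInt} (hM : IsPModular p M)
  {G : Type*} [Group G] [Fintype G]

include hM in
/-- every subsection of a block with abelian defect groups is major -/
theorem subsection_major {B : Set (IrrCharacter G)} (hB : IsPBlock M B) {P : Subgroup G}
    (hPD : IsDefectGroup p M B P) (hab : ∀ x ∈ P, ∀ y ∈ P, x * y = y * x) {x : G}
    (hx : ∃ k : ℕ, orderOf x = p ^ k)
    {b : Set (IrrCharacter (Subgroup.centralizer ({x} : Set G)))}
    (hind : IsInducedBlock M (Subgroup.centralizer ({x} : Set G)) b B) :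
    (∃ g : G, g⁻¹ * x * g ∈ P) ∧
      (∃ n, SubsecData p M (Subgroup.centralizer ({x} : Set G)) x n b B) ∧
        blockDefect p b = blockDefect p B := by
  have hbp := isBPOf_of_subsection hM hx hind
  obtain ⟨P', e', hmax', hle⟩ := IsBPOf.exists_le_max _ _ _ hbp rfl
  have hdef' := hmax'.isDef
  have hPD' : IsDefectGroup p M B P' := isDefectGroup_of_isDef hM hB hdef'
  have hab' := abelian_all_defect hM hB hPD hab P' hPD'
  have hx' : x ∈ P' := hle.le (Subgroup.mem_zpowers x)
  have hPle : P' ≤ Subgroup.centralizer ({x} : Set G) := by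
    rw [centralizer_singleton_eq]
    exact le_Cn_of_abelian hab' (by rw [Subgroup.zpowers_le]; exact hx')
  have hdefβ : IsDef p (Subgroup.centralizer ({x} : Set G))
      (bl hM (Subgroup.centralizer ({x} : Set G)) b) P' := by
    have := hmax'.abelian_isDef_Cn hab' hle
    rwa [← centralizer_singleton_eq] at this
  have hβD := (isDefectGroup_sub_iff hM _ hind.1 hPle).2 hdefβ
  obtain ⟨g, _, hg⟩ := (isDef_of_isDefectGroup hM hB hPD).exists_conj hdef'
  refine ⟨⟨g, ?_⟩, major_setup hM hB hPD' hx' (fun d hd => hab' d hd x hx') hind hβD⟩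
  rw [hg, mem_cS] at hx'
  exact hx'

end Major

section RankOneFour

variable {M : Ideal AlgInt} {K : Type*} [Group K] [Fintype K]

/-- a `2`-block of defect two and rank one: all members agree on `2`-regular elements -/
theorem rank_one_four (hM : IsPModular 2 M) {b : Set (IrrCharacter K)} (hb : IsPBlock M b)
    (hl : blockRank 2 b = 1) (hd : blockDefect 2 b = 2) :
    ∃ φ : K → ℂ, ∀ ζ ∈ b, ∀ s, IsPRegular 2 s → (ζ : K → ℂ) s = φ s := by
  classical
  have : Finite (IrrCharacter K) := finite_irrCharacter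
  have : Fintype (IrrCharacter K) := Fintype.ofFinite _
  obtain ⟨φ, d, n, -, h2, h3⟩ := Cfsg.Agent.Lib.Helper78.rank_one_structure hM hb hl
  have hcard := Cfsg.Agent.Lib.Helper78.card_eq_four_of_defect_two hM hb hd
  have hreg1 : IsPRegular 2 (1 : K) := by unfold IsPRegular; simp
  have hd1 : ∀ ζ ∈ b, 1 ≤ d ζ := by
    intro ζ hζ
    by_contra hcon
    have h0 : d ζ = 0 := by omega
    have := h2 ζ hζ 1 hreg1
    rw [h0] at this
    simp only [Nat.cast_zero, zero_mul] at this
    exact irr_one_ne_zero ζ.2 this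
  have hcardb : (∑ ζ : IrrCharacter K, if ζ ∈ b then 1 else 0) = 4 := by
    rw [← hcard, Nat.card_eq_fintype_card, Fintype.card_subtype, Finset.card_filter]
  rw [hd] at h3
  have hle : ∀ ζ ∈ (Finset.univ : Finset (IrrCharacter K)),
      (if ζ ∈ b then 1 else 0) ≤ (if ζ ∈ b then d ζ ^ 2 else 0) := by
    intro ζ _
    split_ifs with hζ
    · exact Nat.one_le_pow _ _ (hd1 ζ hζ)
    · exact le_rfl
  have heq := (Finset.sum_eq_sum_iff_of_le hle).1 (by rw [hcardb, h3]; norm_num)
  refine ⟨φ, fun ζ hζ s hs => ?_⟩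
  have h4 := heq ζ (Finset.mem_univ _)
  rw [if_pos hζ, if_pos hζ] at h4
  have h5 : d ζ = 1 := by
    have : d ζ ^ 2 = 1 ^ 2 := by rw [← h4]; norm_num
    exact Nat.pow_left_injective (n := 2) (by norm_num) this
  rw [h2 ζ hζ s hs, h5]; simp

end RankOneFour

section Sign

variable {M : Ideal AlgInt} {G : Type*} [Group G] [Fintype G] {H : Subgroup G} [Fintype H]
  {u : G} {n : ℕ} {b : Set (IrrCharacter H)} {B : Set (IrrCharacter G)}

/-- **the sign vector of a subsection** `(u, b)`, `u` an involution, `b` of rank one and defect two,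
of a block `B` of defect two -/
theorem exists_sign (D : SubsecData 2 M H u n b B) (hu2 : u * u = 1)
    (hdb : blockDefect 2 b = 2) (hdB : blockDefect 2 B = 2) (hl : blockRank 2 b = 1) :
    ∃ (φ : H → ℂ) (a : IrrCharacter G → ℤ),
      (∀ ζ ∈ b, ∀ s, IsPRegular 2 s → (ζ : H → ℂ) s = φ s) ∧
      (∀ χ ∈ B, a χ = 1 ∨ a χ = -1) ∧
      (∀ χ : IrrCharacter G, ∀ s, IsPRegular 2 s → Th H b u (χ : G → ℂ) s = (a χ : ℂ) * φ s) := by
  classical
  have hM := D.hM
  have : Finite (IrrCharacter H) := finite_irrCharacter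
  have : Fintype (IrrCharacter H) := Fintype.ofFinite _
  have : Finite (IrrCharacter G) := finite_irrCharacter
  have : Fintype (IrrCharacter G) := Fintype.ofFinite _
  obtain ⟨φ, hφ⟩ := rank_one_four hM D.hind.1 hl hdb
  have hreg1 : IsPRegular 2 (1 : H) := by unfold IsPRegular; simp
  obtain ⟨ζ₀, hζ₀⟩ := isPBlock_nonempty hM D.hind.1
  have hφ1 : φ 1 ≠ 0 := by
    rw [← hφ ζ₀ hζ₀ 1 hreg1]; exact irr_one_ne_zero ζ₀.2
  set y : H := ⟨u, D.hyH⟩ with hy
  have hyc : y ∈ Subgroup.center H := D.center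
  have hy2 : y ^ 2 = 1 := by
    apply Subtype.ext
    simp only [hy, Subgroup.coe_one, pow_two]
    exact hu2
  have hlam : ∀ ζ : IrrCharacter H, lam y (ζ : H → ℂ) = 1 ∨ lam y (ζ : H → ℂ) = -1 := by
    intro ζ
    have h1 := irr_central_pow_mul ζ.2 hyc 2 1
    rw [hy2, one_mul] at h1
    have h2 : lam y (ζ : H → ℂ) ^ 2 = 1 :=
      (mul_right_cancel₀ (irr_one_ne_zero ζ.2) (by rw [one_mul]; exact h1)).symm
    exact sq_eq_one_iff.1 h2
  set sg : IrrCharacter H → ℤ := fun ζ => if lam y (ζ : H → ℂ) = 1 then 1 else -1 with hsg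
  have hsgc : ∀ ζ, ((sg ζ : ℤ) : ℂ) = lam y (ζ : H → ℂ) := by
    intro ζ
    simp only [hsg]
    rcases hlam ζ with h | h
    · rw [if_pos h, h]; simp
    · rw [if_neg (by rw [h]; norm_num), h]; simp
  set a : IrrCharacter G → ℤ :=
    fun χ => ∑ ζ : IrrCharacter H, if ζ ∈ b then sg ζ * (cZ H χ ζ : ℤ) else 0 with ha
  have hTh : ∀ χ : IrrCharacter G, ∀ s, IsPRegular 2 s →
      Th H b u (χ : G → ℂ) s = (a χ : ℂ) * φ s := by
    intro χ s hs
    have h1 := Th_pow_eq H b y hyc 1 χ
    rw [pow_one] at h1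
    have h2 : ((y : H) : G) = u := rfl
    rw [h2] at h1
    rw [h1, Finset.sum_apply, ha]
    push_cast
    rw [Finset.sum_mul]
    apply Finset.sum_congr rfl; intro ζ _
    simp only [Pi.smul_apply, smul_eq_mul]
    split_ifs with hζ
    · rw [hφ ζ hζ s hs, pow_one, hsgc]
    · simp
  have hcardB := Cfsg.Agent.Lib.Helper78.card_eq_four_of_defect_two hM D.hind.2.1 hdB
  have hcardb := Cfsg.Agent.Lib.Helper78.card_eq_four_of_defect_two hM D.hind.1 hdb
  have hcB : (∑ χ : IrrCharacter G, if χ ∈ B then (1 : ℤ) else 0) = 4 := by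
    have : (∑ χ : IrrCharacter G, if χ ∈ B then 1 else 0) = 4 := by
      rw [← hcardB, Nat.card_eq_fintype_card, Fintype.card_subtype, Finset.card_filter]
    exact_mod_cast this
  have hcb : (∑ ζ : IrrCharacter H, if ζ ∈ b then (1 : ℂ) else 0) = 4 := by
    have : (∑ ζ : IrrCharacter H, if ζ ∈ b then 1 else 0) = 4 := by
      rw [← hcardb, Nat.card_eq_fintype_card, Fintype.card_subtype, Finset.card_filter]
    exact_mod_cast this
  have hN : φ 1 * conj (φ 1) ≠ 0 := mul_ne_zero hφ1 ((map_ne_zero _).2 hφ1)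
  have hsum : ∑ χ : IrrCharacter G, (if χ ∈ B then (a χ) ^ 2 else 0) = 4 := by
    have h1 := sum_Th_mul_conj hM H u ⟨n, D.hn⟩ D.hyH D.hcomm D.hC D.hind hreg1 hreg1
    have hL : ∑ χ : IrrCharacter G, (if χ ∈ B then Th H b u (χ : G → ℂ) else 0) 1 *
        conj ((if χ ∈ B then Th H b u (χ : G → ℂ) else 0) 1)
        = ((∑ χ : IrrCharacter G, (if χ ∈ B then (a χ) ^ 2 else 0) : ℤ) : ℂ) *
          (φ 1 * conj (φ 1)) := by
      push_cast
      rw [Finset.sum_mul]
      apply Finset.sum_congr rfl; intro χ _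
      split_ifs with hχ
      · rw [hTh χ 1 hreg1, map_mul, map_intCast]; ring
      · simp
    have hR : ∑ ζ : IrrCharacter H, (if ζ ∈ b then (ζ : H → ℂ) else 0) 1 *
        conj ((if ζ ∈ b then (ζ : H → ℂ) else 0) 1) = 4 * (φ 1 * conj (φ 1)) := by
      rw [← hcb, Finset.sum_mul]
      apply Finset.sum_congr rfl; intro ζ _
      split_ifs with hζ
      · rw [hφ ζ hζ 1 hreg1, one_mul]
      · simp
    rw [hL, hR] at h1
    have h2 := mul_right_cancel₀ hN h1
    exact_mod_cast h2
  have hne : ∀ χ ∈ B, a χ ≠ 0 := by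
    intro χ hχ h0a
    obtain ⟨χ₀, hχ₀, hmin⟩ := exists_minDeg (p := 2) (isPBlock_nonempty hM D.hind.2.1)
    have h0 : blockHeight 2 B (χ₀ : G → ℂ) = 0 := (blockHeight_eq_zero_iff hχ₀).2 hmin
    obtain ⟨w, _, hw, heq⟩ := major_unit D (hdb.trans hdB.symm) hχ₀ hχ h0
    have hzero : mS 2 H b u (χ₀ : G → ℂ) (χ : G → ℂ) = 0 := by
      unfold mS classInner
      rw [Finset.sum_eq_zero, mul_zero]
      intro g _
      rw [pRegularPart_eq]
      by_cases hg : IsPRegular 2 g
      · rw [hTh χ g hg, h0a]; simp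
      · simp only [if_neg hg, zero_mul]
    rw [hzero, mul_zero] at heq
    have hw0 : w = 0 := by
      rcases mul_eq_zero.1 heq.symm with h | h
      · exact absurd h (pow_ne_zero _ (by norm_num))
      · exact h
    apply hw
    rw [hw0]
    exact memLocalIdeal_zero hM
  refine ⟨φ, a, hφ, ?_, hTh⟩
  have hle : ∀ χ ∈ (Finset.univ : Finset (IrrCharacter G)),
      (if χ ∈ B then (1 : ℤ) else 0) ≤ (if χ ∈ B then (a χ) ^ 2 else 0) := by
    intro χ _
    split_ifs with hχ
    · have := hne χ hχ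
      have h3 : 0 < (a χ) ^ 2 := by positivity
      omega
    · exact le_rfl
  have heq := (Finset.sum_eq_sum_iff_of_le hle).1 (by rw [hcB, hsum])
  intro χ hχ
  have h4 := heq χ (Finset.mem_univ _)
  rw [if_pos hχ, if_pos hχ] at h4
  exact sq_eq_one_iff.1 h4.symm

end Sign

end Cfsg.Agent.Lib.Helper5
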