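import Cfsg.Agent.Lib.Helper5.Conj
import Cfsg.Agent.Lib.Helper5.Dihedral

set_option autoImplicit false

namespace Cfsg.Agent.Lib.Helper5

section Klein
set_option linter.unusedSectionVars false
variable {G : Type*} [Group G] [Finite G]

theorem klein_elements (P : Subgroup G) (hP : IsKleinFour P) :
    ∃ a b : G, a ∈ P ∧ b ∈ P ∧ a ≠ 1 ∧ b ≠ 1 ∧ a ≠ b ∧
      ∀ z ∈ P, z = 1 ∨ z = a ∨ z = b ∨ z = a * b := by
  obtain ⟨e⟩ := IsKleinFour.nonempty_mulEquiv (G₁ := P) (G₂ := Multiplicative (ZMod 2 × ZMod 2))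
  have ha : e.symm (Multiplicative.ofAdd (1, 0)) ≠ 1 := by
    intro h
    have h2 := congrArg e h
    rw [MulEquiv.apply_symm_apply, map_one] at h2
    exact absurd h2 (by decide)
  have hb : e.symm (Multiplicative.ofAdd (0, 1)) ≠ 1 := by
    intro h
    have h2 := congrArg e h
    rw [MulEquiv.apply_symm_apply, map_one] at h2
    exact absurd h2 (by decide)
  have hab : e.symm (Multiplicative.ofAdd (1, 0)) ≠ e.symm (Multiplicative.ofAdd (0, 1)) := by
    intro h
    have h2 := e.symm.injective h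
    exact absurd h2 (by decide)
  refine ⟨(e.symm (Multiplicative.ofAdd (1, 0)) : P), (e.symm (Multiplicative.ofAdd (0, 1)) : P),
    Subtype.property _, Subtype.property _, fun h => ha (Subtype.ext h), fun h => hb (Subtype.ext h),
    fun h => hab (Subtype.ext h), ?_⟩
  intro z hz
  by_contra hcon
  push Not at hcon
  obtain ⟨h1, h2, h3, h4⟩ := hcon
  apply h4
  have := IsKleinFour.eq_mul_of_ne_all ha hb hab (z := ⟨z, hz⟩) (fun h => h1 (congrArg Subtype.val h))
    (fun h => h2 (congrArg Subtype.val h)) (fun h => h3 (congrArg Subtype.val h))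
  exact congrArg Subtype.val this

theorem klein_comm (P : Subgroup G) (hP : IsKleinFour P) {x y : G} (hx : x ∈ P) (hy : y ∈ P) :
    x * y = y * x := by
  have := (IsKleinFour.isMulCommutative (G := P)).is_comm.comm ⟨x, hx⟩ ⟨y, hy⟩
  exact congrArg Subtype.val this

theorem klein_sq (P : Subgroup G) (hP : IsKleinFour P) {x : G} (hx : x ∈ P) : x * x = 1 := by
  have := IsKleinFour.mul_self (⟨x, hx⟩ : P)
  exact congrArg Subtype.val this

theorem conj_ne_one {g x : G} (hx : x ≠ 1) : g * x * g⁻¹ ≠ 1 := by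
  intro h
  apply hx
  calc x = g⁻¹ * (g * x * g⁻¹) * g := by group
    _ = 1 := by rw [h]; group

theorem conj_inj' {g x y : G} (h : g * x * g⁻¹ = g * y * g⁻¹) : x = y :=
  mul_left_cancel (mul_right_cancel h)

theorem klein_fusion (P : Sylow 2 G) (hP : IsKleinFour (P : Subgroup G)) {x y : G} (hx : x ∈ P)
    (hy : y ∈ P) (hc : IsConj x y) :
    ∃ m ∈ Subgroup.normalizer ((P : Subgroup G) : Set G), m * x * m⁻¹ = y := by
  obtain ⟨g, hg⟩ := isConj_iff.mp hc
  have : IsMulCommutative (P : Subgroup G) := IsKleinFour.isMulCommutative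
  have h1 : g⁻¹⁻¹ * x * g⁻¹ ∈ P := by
    rw [inv_inv, hg]
    exact hy
  obtain ⟨n, hn, hn2⟩ := P.conj_eq_normalizer_conj_of_mem x g⁻¹ hx h1
  refine ⟨n⁻¹, inv_mem hn, ?_⟩
  rw [inv_inv, ← hn2, inv_inv, hg]

theorem klein_claimA (P : Sylow 2 G) (hP : IsKleinFour (P : Subgroup G)) {x y : G} (hx : x ∈ P)
    (hy : y ∈ P) (hy1 : y ≠ 1) (hxy : x ≠ y)
    (hall : ∀ z ∈ P, z = 1 ∨ z = x ∨ z = y ∨ z = x * y) (hc : IsConj x y) : IsConj x (x * y) := by
  obtain ⟨m, hm, hmx⟩ := klein_fusion P hP hx hy hc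
  have hw : m * y * m⁻¹ ∈ P := (Subgroup.mem_normalizer_iff.mp hm y).mp hy
  rcases hall _ hw with h | h | h | h
  · exact absurd h (conj_ne_one hy1)
  · exfalso
    have hpos : orderOf m ≠ 0 := (orderOf_pos _).ne'
    obtain ⟨k, r, hr, hkr⟩ := Nat.exists_eq_two_pow_mul_odd hpos
    have hord : orderOf (m ^ r) = 2 ^ k := by
      rw [orderOf_pow_of_dvd (by rintro rfl; simp at hr) (by rw [hkr]; exact Dvd.intro_left _ rfl), hkr]
      exact Nat.mul_div_cancel _ (Nat.pos_of_ne_zero (by rintro rfl; simp at hr))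
    have hpg : IsPGroup 2 (Subgroup.zpowers (m ^ r)) :=
      IsPGroup.of_card (n := k) (by rw [Nat.card_zpowers, hord])
    have hnorm : Subgroup.zpowers (m ^ r) ≤ Subgroup.normalizer ((P : Subgroup G) : Set G) := by
      rw [Subgroup.zpowers_le]
      exact pow_mem hm r
    have hsup := P.isPGroup'.to_sup_of_normal_left' hpg hnorm
    have heq := P.is_maximal' hsup le_sup_left
    have hmem : m ^ r ∈ P := by
      have : m ^ r ∈ (P : Subgroup G) ⊔ Subgroup.zpowers (m ^ r) :=
        (le_sup_right : Subgroup.zpowers (m ^ r) ≤ _) (Subgroup.mem_zpowers _)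
      rw [heq] at this
      exact this
    have hcomm := klein_comm _ hP hmem hx
    obtain ⟨i, rfl⟩ := hr
    have h2 : Commute (m ^ 2) y := by
      change m ^ 2 * y = y * m ^ 2
      have : m ^ 2 * y * (m ^ 2)⁻¹ = y := by
        calc m ^ 2 * y * (m ^ 2)⁻¹ = m * (m * y * m⁻¹) * m⁻¹ := by
              rw [sq, mul_inv_rev]; simp only [mul_assoc]
          _ = y := by rw [h, hmx]
      exact mul_inv_eq_iff_eq_mul.mp this
    have h3 : Commute ((m ^ 2) ^ i) y := h2.pow_left i
    have h4 : m ^ (2 * i + 1) * x * (m ^ (2 * i + 1))⁻¹ = y := by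
      calc m ^ (2 * i + 1) * x * (m ^ (2 * i + 1))⁻¹
          = (m ^ 2) ^ i * (m * x * m⁻¹) * ((m ^ 2) ^ i)⁻¹ := by
            rw [pow_succ, pow_mul, mul_inv_rev]; simp only [mul_assoc]
        _ = (m ^ 2) ^ i * y * ((m ^ 2) ^ i)⁻¹ := by rw [hmx]
        _ = y := by rw [h3.eq, mul_inv_cancel_right]
    rw [hcomm, mul_inv_cancel_right] at h4
    exact hxy h4
  · exact absurd (conj_inj' (h.trans hmx.symm)) (Ne.symm hxy)
  · exact hc.trans (isConj_iff.mpr ⟨m, h⟩)

/-- every involution is conjugate to a non-identity element of a Sylow 2-subgroup -/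
theorem involution_conj_sylow (P : Sylow 2 G) {t : G} (ht : orderOf t = 2) :
    ∃ z ∈ P, z ≠ 1 ∧ IsConj t z := by
  have hX : IsPGroup 2 (Subgroup.zpowers t) :=
    IsPGroup.of_card (n := 1) (by rw [Nat.card_zpowers, ht, pow_one])
  obtain ⟨h, hh⟩ := exists_cj_le_sylow P hX
  exact ⟨h * t * h⁻¹, hh (conj_mem_cj (Subgroup.mem_zpowers t)),
    conj_ne_one (ne_one_of_order_two ht), isConj_iff.mpr ⟨h, rfl⟩⟩

open Classical in
theorem klein_classes (P : Sylow 2 G) (hP : IsKleinFour (P : Subgroup G)) :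
    ∃ a b : G, a ∈ P ∧ b ∈ P ∧ a ≠ 1 ∧ b ≠ 1 ∧ a ≠ b ∧
      (∀ z ∈ P, z = 1 ∨ z = a ∨ z = b ∨ z = a * b) ∧
      Nat.card {C : ConjClasses G // ∃ t : G, orderOf t = 2 ∧ ConjClasses.mk t = C} =
        ({ConjClasses.mk a, ConjClasses.mk b, ConjClasses.mk (a * b)} : Finset (ConjClasses G)).card := by
  obtain ⟨a, b, ha, hb, ha1, hb1, hab, hall⟩ := klein_elements (P : Subgroup G) hP
  refine ⟨a, b, ha, hb, ha1, hb1, hab, hall, ?_⟩
  apply Nat.subtype_card
  intro C
  simp only [Finset.mem_insert, Finset.mem_singleton]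
  have hab1 : a * b ≠ 1 := by
    intro h
    apply hab
    have := klein_sq _ hP hb
    exact mul_right_cancel (h.trans this.symm)
  constructor
  · rintro (rfl | rfl | rfl)
    · exact ⟨a, order_two_of_mul_self (klein_sq _ hP ha) ha1, rfl⟩
    · exact ⟨b, order_two_of_mul_self (klein_sq _ hP hb) hb1, rfl⟩
    · exact ⟨a * b, order_two_of_mul_self (klein_sq _ hP (mul_mem ha hb)) hab1, rfl⟩
  · rintro ⟨t, ht, rfl⟩
    obtain ⟨z, hz, hz1, hc⟩ := involution_conj_sylow P ht
    rw [ConjClasses.mk_eq_mk_iff_isConj.mpr hc]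
    rcases hall z hz with h | h | h | h
    · exact absurd h hz1
    · left; rw [h]
    · right; left; rw [h]
    · right; right; rw [h]

/-- either the three involutions are pairwise non-conjugate or they are all conjugate -/
theorem klein_dichotomy (P : Sylow 2 G) (hP : IsKleinFour (P : Subgroup G)) {a b : G}
    (ha : a ∈ P) (hb : b ∈ P) (ha1 : a ≠ 1) (hb1 : b ≠ 1) (hab : a ≠ b)
    (hall : ∀ z ∈ P, z = 1 ∨ z = a ∨ z = b ∨ z = a * b) :
    (IsConj a b ∧ IsConj a (a * b)) ∨ (¬ IsConj a b ∧ ¬ IsConj a (a * b) ∧ ¬ IsConj b (a * b)) := by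
  have hbb := klein_sq _ hP hb
  have haa := klein_sq _ hP ha
  have hcomm := klein_comm _ hP ha hb
  have hab1 : a * b ≠ 1 := by
    intro h
    exact hab (mul_right_cancel (h.trans hbb.symm))
  by_cases h1 : IsConj a b
  · exact Or.inl ⟨h1, klein_claimA P hP ha hb hb1 hab hall h1⟩
  · by_cases h2 : IsConj a (a * b)
    · exfalso
      apply h1
      have e : a * (a * b) = b := by rw [← mul_assoc, haa, one_mul]
      have := klein_claimA P hP ha (mul_mem ha hb) hab1
        (fun h => hb1 (by simpa using h.symm)) (by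
          intro z hz
          rw [e]
          rcases hall z hz with h | h | h | h
          · exact Or.inl h
          · exact Or.inr (Or.inl h)
          · exact Or.inr (Or.inr (Or.inr h))
          · exact Or.inr (Or.inr (Or.inl h))) h2
      rwa [e] at this
    · by_cases h3 : IsConj b (a * b)
      · exfalso
        apply h1
        have e : b * (a * b) = a := by rw [hcomm, ← mul_assoc, hbb, one_mul]
        have := klein_claimA P hP hb (mul_mem ha hb) hab1
          (fun h => ha1 (by simpa using h.symm)) (by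
            intro z hz
            rw [e]
            rcases hall z hz with h | h | h | h
            · exact Or.inl h
            · exact Or.inr (Or.inr (Or.inr h))
            · exact Or.inr (Or.inl h)
            · exact Or.inr (Or.inr (Or.inl h))) h3
        rw [e] at this
        exact this.symm
      · exact Or.inr ⟨h1, h2, h3⟩

end Klein

end Cfsg.Agent.Lib.Helper5
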