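import Mathlib
import Cfsg.Prelude.Def_Characters
import Cfsg.Agent.Lib.Helper79.GaloisNorm

set_option autoImplicit false
open Cfsg

/-! A generalized character of a finite group all of whose values are positive reals and whose
mean value is one is the constant function one (arithmetic-geometric mean argument). -/

namespace Cfsg.Agent.Lib.Helper5

/-- Equality case of `Helper79.card_le_sum_of_one_le_prod`. -/
theorem eq_one_of_sum_le_card {ι : Type*} (s : Finset ι) (x : ι → ℝ) (hx : ∀ i ∈ s, 0 < x i)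
    (hp : 1 ≤ ∏ i ∈ s, x i) (hs : ∑ i ∈ s, x i ≤ (s.card : ℝ)) : ∀ i ∈ s, x i = 1 := by
  have h1 : 0 ≤ Real.log (∏ i ∈ s, x i) := Real.log_nonneg hp
  rw [Real.log_prod (fun i hi => (hx i hi).ne')] at h1
  have h2 : ∀ i ∈ s, 0 ≤ x i - 1 - Real.log (x i) := fun i hi => by
    have := Real.log_le_sub_one_of_pos (hx i hi); linarith
  have h3 : ∑ i ∈ s, (x i - 1 - Real.log (x i)) ≤ 0 := by
    rw [Finset.sum_sub_distrib, Finset.sum_sub_distrib]
    simp only [Finset.sum_const, nsmul_eq_mul, mul_one]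
    linarith
  have h4 : ∑ i ∈ s, (x i - 1 - Real.log (x i)) = 0 := le_antisymm h3 (Finset.sum_nonneg h2)
  intro i hi
  have h5 := (Finset.sum_eq_zero_iff_of_nonneg h2).1 h4 i hi
  by_contra hne
  have := Real.log_lt_sub_one_of_pos (hx i hi) hne
  linarith

/-- Integer eigenvalue weights for a generalized character. -/
theorem genChar_exists_weights {G : Type*} [Group G] {θ : G → ℂ}
    (hθ : IsGeneralizedCharacter G θ) (g : G) (n : ℕ) (hn : 0 < n) (hg : g ^ n = 1) :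
    ∃ (s : Finset ℂ) (m : ℂ → ℤ), (∀ μ ∈ s, μ ^ n = 1) ∧
      ∀ k : ℕ, θ (g ^ k) = ∑ μ ∈ s, (m μ : ℂ) * μ ^ k := by
  classical
  obtain ⟨χ, ψ, hχ, hψ, rfl⟩ := hθ
  obtain ⟨s₁, m₁, h1, _, h3⟩ := Helper79.IsCharacter.exists_weights χ hχ g n hn hg
  obtain ⟨s₂, m₂, k1, _, k3⟩ := Helper79.IsCharacter.exists_weights ψ hψ g n hn hg
  refine ⟨s₁ ∪ s₂, fun μ => (if μ ∈ s₁ then (m₁ μ : ℤ) else 0) - (if μ ∈ s₂ then (m₂ μ : ℤ) else 0),
    ?_, ?_⟩
  · intro μ hμ
    rcases Finset.mem_union.1 hμ with h | h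
    · exact h1 μ h
    · exact k1 μ h
  · intro k
    have e1 : ∑ μ ∈ s₁ ∪ s₂, (((if μ ∈ s₁ then (m₁ μ : ℤ) else 0 : ℤ) : ℂ)) * μ ^ k
        = ∑ μ ∈ s₁, (m₁ μ : ℂ) * μ ^ k := by
      rw [← Finset.sum_subset (Finset.subset_union_left (s₁ := s₁) (s₂ := s₂))]
      · refine Finset.sum_congr rfl fun μ hμ => ?_
        rw [if_pos hμ]; simp
      · intro μ _ hμ
        rw [if_neg hμ]; simp
    have e2 : ∑ μ ∈ s₁ ∪ s₂, (((if μ ∈ s₂ then (m₂ μ : ℤ) else 0 : ℤ) : ℂ)) * μ ^ k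
        = ∑ μ ∈ s₂, (m₂ μ : ℂ) * μ ^ k := by
      rw [← Finset.sum_subset (Finset.subset_union_right (s₁ := s₁) (s₂ := s₂))]
      · refine Finset.sum_congr rfl fun μ hμ => ?_
        rw [if_pos hμ]; simp
      · intro μ _ hμ
        rw [if_neg hμ]; simp
    rw [Pi.sub_apply, h3 k, k3 k, ← e1, ← e2, ← Finset.sum_sub_distrib]
    refine Finset.sum_congr rfl fun μ _ => ?_
    push_cast
    ring

theorem genChar_eq_one_of_pos {P : Type*} [Group P] [Fintype P] {μ : P → ℂ}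
    (hμ : IsGeneralizedCharacter P μ) (hpos : ∀ u, ∃ r : ℝ, 0 < r ∧ μ u = (r : ℂ))
    (hmean : ∑ u, μ u = (Nat.card P : ℂ)) : ∀ u, μ u = 1 := by
  classical
  choose r hr0 hr using hpos
  set n : ℕ := Nat.card P with hn
  have : NeZero n := ⟨Nat.card_pos.ne'⟩
  have hpn : ∀ u : P, u ^ n = 1 := fun u => by rw [hn]; exact pow_card_eq_one'
  -- the product of the conjugates is at least one
  have hprod : ∀ u : P, 1 ≤ ∏ j : (ZMod n)ˣ, r (u ^ (j : ZMod n).val) := by
    intro u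
    obtain ⟨s, m, h1, h2⟩ := genChar_exists_weights hμ u n (NeZero.pos n) (hpn u)
    have e1 := h2 1
    simp only [pow_one] at e1
    have hp := Helper79.one_le_prod_norm_weighted n s m h1 (by
      rw [← e1, hr u]
      exact_mod_cast (hr0 u).ne')
    simp_rw [← h2, hr] at hp
    refine hp.trans (le_of_eq ?_)
    refine Finset.prod_congr rfl fun j _ => ?_
    rw [Complex.norm_real, Real.norm_eq_abs, abs_of_pos (hr0 _)]
  have hT : ∀ u : P, ((Finset.univ : Finset (ZMod n)ˣ).card : ℝ)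
      ≤ ∑ j : (ZMod n)ˣ, r (u ^ (j : ZMod n).val) := fun u =>
    Helper79.card_le_sum_of_one_le_prod Finset.univ _ (fun j _ => hr0 _) (hprod u)
  have hmean' : ∑ u, r u = (n : ℝ) := by
    have : ((∑ u, r u : ℝ) : ℂ) = ((n : ℝ) : ℂ) := by
      push_cast
      rw [← hmean]
      exact Finset.sum_congr rfl fun u _ => (hr u).symm
    exact_mod_cast this
  have hsum : ∑ u : P, ∑ j : (ZMod n)ˣ, r (u ^ (j : ZMod n).val)
      = ∑ _u : P, ((Finset.univ : Finset (ZMod n)ˣ).card : ℝ) := by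
    rw [Finset.sum_comm]
    have : ∀ j : (ZMod n)ˣ, ∑ u : P, r (u ^ (j : ZMod n).val) = (n : ℝ) := by
      intro j
      have hc : (Nat.card P).Coprime (j : ZMod n).val := (ZMod.val_coe_unit_coprime j).symm
      rw [← hmean']
      exact Equiv.sum_comp (powCoprime hc) r
    rw [Finset.sum_congr rfl fun j _ => this j]
    simp only [Finset.sum_const, nsmul_eq_mul, Finset.card_univ]
    have hc : (Fintype.card P : ℝ) = (n : ℝ) := by rw [hn, Nat.card_eq_fintype_card]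
    rw [hc]
    ring
  have hTeq : ∀ u : P, ∑ j : (ZMod n)ˣ, r (u ^ (j : ZMod n).val)
      = ((Finset.univ : Finset (ZMod n)ˣ).card : ℝ) := by
    intro u
    have := (Finset.sum_eq_sum_iff_of_le (s := Finset.univ) (fun u _ => hT u)).1 hsum.symm u
      (Finset.mem_univ u)
    exact this.symm
  intro u
  have h1 := eq_one_of_sum_le_card Finset.univ (fun j : (ZMod n)ˣ => r (u ^ (j : ZMod n).val))
    (fun j _ => hr0 _) (hprod u) (hTeq u).le 1 (Finset.mem_univ _)
  have h2 : u ^ ((1 : (ZMod n)ˣ) : ZMod n).val = u := by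
    rw [Units.val_one, ZMod.val_one_eq_one_mod, hn, pow_mod_natCard, pow_one]
  simp only [h2] at h1
  rw [hr u, h1]
  simp

end Cfsg.Agent.Lib.Helper5
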